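import Mathlib
import Cfsg.Prelude.Def_GeometricClasses

set_option autoImplicit false

namespace Cfsg.Agent.Lib.Helper9.Inv

open Module

variable {F : Type*} [Field F]

section K

variable {ι : Type} [Fintype ι] [DecidableEq ι]

theorem exists_generator (K : Subalgebra F (Matrix ι ι F)) (hK : Cfsg.Geo.IsFieldSubalgebra 2 K) :
    ∃ (ω : Matrix ι ι F) (t d : F), ω ∈ K ∧ ω * ω = t • ω - d • (1 : Matrix ι ι F) ∧
      (∀ s : F, s * s - t * s + d ≠ 0) ∧
      (∀ k : Matrix ι ι F, k ∈ K ↔ ∃ a b : F, k = a • (1 : Matrix ι ι F) + b • ω) := by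
  classical
  have hfr : finrank F (Subalgebra.toSubmodule K) = 2 := hK.finrank_eq
  -- there is ω ∈ K outside span {1}
  have hex : ∃ ω ∈ K, ω ∉ Submodule.span F {(1 : Matrix ι ι F)} := by
    by_contra hcon
    push Not at hcon
    have hle : Subalgebra.toSubmodule K ≤ Submodule.span F {(1 : Matrix ι ι F)} := by
      intro x hx
      exact hcon x hx
    have h1 := Submodule.finrank_mono hle
    have h2 := finrank_span_le_card (R := F) ({(1 : Matrix ι ι F)} : Set (Matrix ι ι F))
    simp at h2
    omega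
  obtain ⟨ω, hωK, hω⟩ := hex
  have hns : ∀ s : F, ω ≠ s • (1 : Matrix ι ι F) := by
    intro s hs
    exact hω (hs ▸ Submodule.smul_mem _ _ (Submodule.mem_span_singleton_self _))
  have h10 : (1 : Matrix ι ι F) ≠ 0 := by
    intro h
    apply hns 0
    rw [zero_smul]
    calc ω = ω * 1 := (mul_one _).symm
      _ = 0 := by rw [h, mul_zero]
  have hli : LinearIndependent F ![(1 : Matrix ι ι F), ω] := by
    rw [LinearIndependent.pair_iff' h10]
    intro a ha
    exact hns a ha.symm
  have hspan : Submodule.span F {(1 : Matrix ι ι F), ω} = Subalgebra.toSubmodule K := by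
    apply Submodule.eq_of_le_of_finrank_eq
    · rw [Submodule.span_le]
      intro x hx
      rcases hx with rfl | rfl
      · exact K.one_mem
      · exact hωK
    · rw [hfr]
      have := finrank_span_eq_card hli
      have hr : Set.range ![(1 : Matrix ι ι F), ω] = {(1 : Matrix ι ι F), ω} := by
        ext x
        simp [eq_comm]
        tauto
      rw [hr] at this
      rw [this]
      rfl
  have hmem : ∀ k : Matrix ι ι F, k ∈ K ↔ ∃ a b : F, k = a • (1 : Matrix ι ι F) + b • ω := by
    intro k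
    rw [← Subalgebra.mem_toSubmodule, ← hspan, Submodule.mem_span_pair]
    constructor
    · rintro ⟨a, b, h⟩; exact ⟨a, b, h.symm⟩
    · rintro ⟨a, b, h⟩; exact ⟨a, b, h.symm⟩
  obtain ⟨a, b, hab⟩ := (hmem (ω * ω)).1 (K.mul_mem hωK hωK)
  refine ⟨ω, b, -a, hωK, ?_, ?_, hmem⟩
  · rw [hab]; module
  · intro s hs
    have hx : ω - s • (1 : Matrix ι ι F) ≠ 0 := fun h => hns s (sub_eq_zero.1 h)
    have hx' : ω - (b - s) • (1 : Matrix ι ι F) ≠ 0 := fun h => hns _ (sub_eq_zero.1 h)
    have hxK : ω - s • (1 : Matrix ι ι F) ∈ K := K.sub_mem hωK (K.smul_mem K.one_mem s)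
    obtain ⟨y, hyK, hy⟩ := hK.inv _ hxK hx
    have hyx : y * (ω - s • (1 : Matrix ι ι F)) = 1 := by rw [← hK.comm _ hxK _ hyK]; exact hy
    have hprod : (ω - s • (1 : Matrix ι ι F)) * (ω - (b - s) • (1 : Matrix ι ι F)) = 0 := by
      have : (ω - s • (1 : Matrix ι ι F)) * (ω - (b - s) • (1 : Matrix ι ι F))
          = ω * ω - b • ω + (s * (b - s)) • (1 : Matrix ι ι F) := by
        simp only [sub_mul, mul_sub, smul_mul_assoc, mul_smul_comm, one_mul, mul_one]
        module
      rw [this, hab]
      have h3 : a + s * (b - s) = 0 := by linear_combination -hs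
      calc a • (1 : Matrix ι ι F) + b • ω - b • ω + (s * (b - s)) • (1 : Matrix ι ι F)
          = (a + s * (b - s)) • (1 : Matrix ι ι F) := by module
        _ = 0 := by rw [h3, zero_smul]
    apply hx'
    calc ω - (b - s) • (1 : Matrix ι ι F)
        = (y * (ω - s • (1 : Matrix ι ι F))) * (ω - (b - s) • (1 : Matrix ι ι F)) := by
          rw [hyx, one_mul]
      _ = 0 := by rw [mul_assoc, hprod, mul_zero]

end K

end Cfsg.Agent.Lib.Helper9.Inv
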