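import Mathlib
import Cfsg.Prelude.Def_GeometricClasses

set_option autoImplicit false

namespace Cfsg.Agent.Lib.Helper9.Inv

open Module

variable {F : Type*} [Field F]

section K

variable {ι : Type} [Fintype ι] [DecidableEq ι]

/-- [NORM] -/
theorem mem_normalizer_of_conj (K : Subalgebra F (Matrix ι ι F)) (ω : Matrix ι ι F)
    (hKω : ∀ k : Matrix ι ι F, k ∈ K ↔ ∃ a b : F, k = a • (1 : Matrix ι ι F) + b • ω)
    (y : Matrix.GeneralLinearGroup ι F) (a b : F) (hb : b ≠ 0)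
    (hy : (y : Matrix ι ι F) * ω = (a • (1 : Matrix ι ι F) + b • ω) * (y : Matrix ι ι F)) :
    y ∈ Cfsg.Geo.subalgebraNormalizer K := by
  set Y : Matrix ι ι F := ↑y with hY
  set Yi : Matrix ι ι F := ↑(y⁻¹) with hYi
  have hYYi : Y * Yi = 1 := by
    rw [hY, hYi, ← Units.val_mul, mul_inv_cancel]; rfl
  have hYiY : Yi * Y = 1 := by
    rw [hY, hYi, ← Units.val_mul, inv_mul_cancel]; rfl
  have c1 : Y * ω * Yi = a • (1 : Matrix ι ι F) + b • ω := by
    rw [hy, mul_assoc, hYYi, mul_one]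
  have c2 : Yi * ω * Y = b⁻¹ • (ω - a • (1 : Matrix ι ι F)) := by
    have h1 : ω = a • (1 : Matrix ι ι F) + b • (Yi * ω * Y) := by
      calc ω = Yi * (Y * ω) := by rw [← mul_assoc, hYiY, one_mul]
        _ = Yi * ((a • (1 : Matrix ι ι F) + b • ω) * Y) := by rw [hy]
        _ = a • (Yi * Y) + b • (Yi * ω * Y) := by
            simp only [add_mul, mul_add, smul_mul_assoc, mul_smul_comm, one_mul, mul_assoc]
        _ = a • (1 : Matrix ι ι F) + b • (Yi * ω * Y) := by rw [hYiY]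
    have h2 : ω - a • (1 : Matrix ι ι F) = b • (Yi * ω * Y) := by
      rw [sub_eq_iff_eq_add, add_comm]; exact h1
    rw [h2, smul_smul, inv_mul_cancel₀ hb, one_smul]
  intro k
  show k ∈ K ↔ Y * k * Yi ∈ K
  rw [hKω, hKω]
  constructor
  · rintro ⟨α, β, rfl⟩
    refine ⟨α + β * a, β * b, ?_⟩
    calc Y * (α • (1 : Matrix ι ι F) + β • ω) * Yi = α • (Y * Yi) + β • (Y * ω * Yi) := by
          simp only [add_mul, mul_add, smul_mul_assoc, mul_smul_comm, mul_one]
      _ = (α + β * a) • (1 : Matrix ι ι F) + (β * b) • ω := by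
          rw [hYYi, c1, smul_add, smul_smul, smul_smul, add_smul, add_assoc]
  · rintro ⟨α, β, h⟩
    refine ⟨α - β * b⁻¹ * a, β * b⁻¹, ?_⟩
    calc k = Yi * (Y * k * Yi) * Y := by
          rw [mul_assoc, mul_assoc, mul_assoc, hYiY, mul_one, ← mul_assoc, hYiY, one_mul]
      _ = Yi * (α • (1 : Matrix ι ι F) + β • ω) * Y := by rw [h]
      _ = α • (Yi * Y) + β • (Yi * ω * Y) := by
          simp only [add_mul, mul_add, smul_mul_assoc, mul_smul_comm, mul_one]
      _ = (α - β * b⁻¹ * a) • (1 : Matrix ι ι F) + (β * b⁻¹) • ω := by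
          rw [hYiY, c2, smul_smul, smul_sub, smul_smul, sub_smul]
          abel

end K

end Cfsg.Agent.Lib.Helper9.Inv
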