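import Mathlib

set_option autoImplicit false

namespace Cfsg.Agent.Lib.Helper9.Inv

variable {F : Type*} [Field F]

theorem exists_sq_mul_eq [Fintype F] (h2 : (2 : F) ≠ 0) {z D : F} (hz : ∀ s : F, s * s ≠ z)
    (hD : ∀ s : F, s * s ≠ D) : ∃ b : F, b * b * z = D := by
  classical
  have hchar : ringChar F ≠ 2 := by
    intro h
    haveI : CharP F 2 := by rw [← h]; exact ringChar.charP F
    exact h2 (by exact_mod_cast CharP.cast_eq_zero F 2)
  have hz0 : z ≠ 0 := by
    intro h; exact hz 0 (by rw [h]; ring)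
  have hD0 : D ≠ 0 := by
    intro h; exact hD 0 (by rw [h]; ring)
  have hzs : ¬ IsSquare z := by
    rintro ⟨s, hs⟩; exact hz s hs.symm
  have hDs : ¬ IsSquare D := by
    rintro ⟨s, hs⟩; exact hD s hs.symm
  have h1 : quadraticChar F z = -1 := (quadraticChar_neg_one_iff_not_isSquare).mpr hzs
  have h3 : quadraticChar F D = -1 := (quadraticChar_neg_one_iff_not_isSquare).mpr hDs
  have h4 : quadraticChar F (D * z) = 1 := by
    rw [map_mul, h1, h3]; norm_num
  have h5 : IsSquare (D * z) := (quadraticChar_one_iff_isSquare (mul_ne_zero hD0 hz0)).mp h4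
  obtain ⟨s, hs⟩ := h5
  refine ⟨s / z, ?_⟩
  field_simp
  linear_combination -hs

end Cfsg.Agent.Lib.Helper9.Inv
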