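import Mathlib

set_option autoImplicit false

namespace Cfsg.Agent.Lib.Helper9.Inv

variable {F : Type*} [Field F]

theorem exists_pow_eq_neg_one [Fintype F] (hodd : Odd (Fintype.card F)) (n : ℕ) (hn : n ≠ 0)
    (h : padicValNat 2 n < padicValNat 2 (Fintype.card F - 1)) : ∃ c : F, c ^ n = -1 := by
  classical
  have hq : Fintype.card F - 1 ≠ 0 := by
    have := Fintype.one_lt_card (α := F)
    omega
  obtain ⟨g, hg⟩ := IsCyclic.exists_generator (α := Fˣ)
  have hord : orderOf g = Fintype.card F - 1 := by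
    rw [orderOf_eq_card_of_forall_mem_zpowers hg, Nat.card_eq_fintype_card, Fintype.card_units]
  obtain ⟨m, hm⟩ : 2 ^ padicValNat 2 n ∣ n := pow_padicValNat_dvd
  have hmodd : Odd m := by
    rw [← Nat.not_even_iff_odd]
    rintro ⟨k, hk⟩
    apply pow_succ_padicValNat_not_dvd (p := 2) hn
    refine ⟨k, ?_⟩
    rw [pow_succ]
    conv_lhs => rw [hm, hk]
    ring
  obtain ⟨t, ht⟩ : 2 ^ (padicValNat 2 n + 1) ∣ Fintype.card F - 1 :=
    (padicValNat_dvd_iff_le hq).mpr h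
  set a := padicValNat 2 n with ha
  have ht0 : t ≠ 0 := by
    intro h0; rw [h0, mul_zero] at ht; exact hq ht
  have hu2 : (g ^ (t * 2 ^ a)) ^ 2 = 1 := by
    rw [← pow_mul]
    have : t * 2 ^ a * 2 = Fintype.card F - 1 := by rw [ht, pow_succ]; ring
    rw [this, ← hord, pow_orderOf_eq_one]
  have hu1 : g ^ (t * 2 ^ a) ≠ 1 := by
    apply pow_ne_one_of_lt_orderOf
    · exact mul_ne_zero ht0 (pow_ne_zero _ two_ne_zero)
    · rw [hord, ht, pow_succ]
      have : 0 < t * 2 ^ a := Nat.pos_of_ne_zero (mul_ne_zero ht0 (pow_ne_zero _ two_ne_zero))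
      nlinarith
  have hu : ((g ^ (t * 2 ^ a) : Fˣ) : F) = -1 := by
    have h2 : ((g ^ (t * 2 ^ a) : Fˣ) : F) ^ 2 = 1 := by
      rw [← Units.val_pow_eq_pow_val, hu2, Units.val_one]
    have h1 : ((g ^ (t * 2 ^ a) : Fˣ) : F) ≠ 1 := by
      intro h; exact hu1 (Units.ext (by rw [h, Units.val_one]))
    rcases (sq_eq_one_iff.mp h2) with h | h
    · exact absurd h h1
    · exact h
  refine ⟨((g ^ t : Fˣ) : F), ?_⟩
  have : ((g ^ t : Fˣ) : F) ^ n = (((g ^ (t * 2 ^ a) : Fˣ) : F)) ^ m := by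
    rw [← Units.val_pow_eq_pow_val, ← Units.val_pow_eq_pow_val, ← pow_mul, ← pow_mul]
    congr 2
    conv_lhs => rw [hm]
    ring
  rw [this, hu, hmodd.neg_one_pow]

end Cfsg.Agent.Lib.Helper9.Inv
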