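import Mathlib

set_option autoImplicit false

namespace Cfsg.Agent.Lib.Helper9.Inv

variable {F : Type*} [Field F]

theorem pow_ne_neg_one [Fintype F] (hodd : Odd (Fintype.card F)) (n : ℕ) (hn : n ≠ 0)
    (h : padicValNat 2 (Fintype.card F - 1) ≤ padicValNat 2 n) (c : F) : c ^ n ≠ -1 := by
  intro hc
  have hchar : ringChar F ≠ 2 := by
    intro h2
    have := FiniteField.even_card_of_char_two h2
    rw [Nat.odd_iff] at hodd
    omega
  have hne : (-1 : F) ≠ 1 := Ring.neg_one_ne_one_of_char_ne_two hchar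
  have hc0 : c ≠ 0 := by
    intro h0
    rw [h0, zero_pow hn] at hc
    exact (neg_ne_zero.mpr one_ne_zero) hc.symm
  have hq : Fintype.card F - 1 ≠ 0 := by
    have := Fintype.one_lt_card (α := F)
    omega
  obtain ⟨m, hm⟩ : 2 ^ padicValNat 2 (Fintype.card F - 1) ∣ Fintype.card F - 1 := pow_padicValNat_dvd
  have hmodd : Odd m := by
    rw [← Nat.not_even_iff_odd]
    rintro ⟨k, hk⟩
    apply pow_succ_padicValNat_not_dvd (p := 2) hq
    refine ⟨k, ?_⟩
    rw [pow_succ]
    conv_lhs => rw [hm, hk]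
    ring
  obtain ⟨k, hk⟩ : 2 ^ padicValNat 2 (Fintype.card F - 1) ∣ n := (padicValNat_dvd_iff_le hn).mpr h
  have h1 : (c ^ n) ^ m = 1 := by
    have : n * m = (Fintype.card F - 1) * k := by
      conv_rhs => rw [hm]
      conv_lhs => rw [hk]
      ring
    rw [← pow_mul, this, pow_mul, FiniteField.pow_card_sub_one_eq_one c hc0, one_pow]
  rw [hc, hmodd.neg_one_pow] at h1
  exact hne h1

end Cfsg.Agent.Lib.Helper9.Inv
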