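import Mathlib

/-!
# Elements whose square is a scalar: plane systems (helper9, rows S5967 / S5969)
-/

set_option autoImplicit false

namespace Cfsg.Agent.Lib.Helper9.Inv

variable {F V : Type*} [Field F] [AddCommGroup V] [Module F V]

/-- `V` has a basis `(a_k, b_k)` such that every plane `<a_k, b_k>` is `X`-invariant and `X` has
determinant `μ` on each of these planes. -/
def HasPlaneSys (X : V →ₗ[F] V) (μ : F) : Prop :=
  ∃ (κ : Type) (_ : Fintype κ) (B : Module.Basis (κ ⊕ κ) F V) (α β γ δ : κ → F),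
    (∀ k, X (B (Sum.inl k)) = α k • B (Sum.inl k) + γ k • B (Sum.inr k)) ∧
    (∀ k, X (B (Sum.inr k)) = β k • B (Sum.inl k) + δ k • B (Sum.inr k)) ∧
    (∀ k, α k * δ k - β k * γ k = μ)

end Cfsg.Agent.Lib.Helper9.Inv
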