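import Mathlib
import Cfsg.Agent.Lib.Helper9.Inv.Defs

set_option autoImplicit false

namespace Cfsg.Agent.Lib.Helper9.Inv

open Module

variable {F V : Type*} [Field F] [AddCommGroup V] [Module F V]

/-- `κ ⊕ κ ≃ Fin 2 × κ`. -/
def BLK_e (κ : Type) : κ ⊕ κ ≃ Fin 2 × κ where
  toFun := Sum.elim (fun k => (0, k)) (fun k => (1, k))
  invFun := fun x => if x.1 = 0 then Sum.inl x.2 else Sum.inr x.2
  left_inv := by rintro (k | k) <;> simp
  right_inv := by
    rintro ⟨i, k⟩
    fin_cases i <;> simp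

theorem BLK_symm0 (κ : Type) (k : κ) : (BLK_e κ).symm (0, k) = Sum.inl k := rfl
theorem BLK_symm1 (κ : Type) (k : κ) : (BLK_e κ).symm (1, k) = Sum.inr k := rfl

theorem det_plane_map {κ : Type} [Fintype κ] [DecidableEq κ] (B : Basis (κ ⊕ κ) F V) (k₀ : κ)
    (a b c d : F) (f : V →ₗ[F] V)
    (h1 : f (B (Sum.inl k₀)) = a • B (Sum.inl k₀) + c • B (Sum.inr k₀))
    (h2 : f (B (Sum.inr k₀)) = b • B (Sum.inl k₀) + d • B (Sum.inr k₀))
    (h3 : ∀ k, k ≠ k₀ → f (B (Sum.inl k)) = B (Sum.inl k) ∧ f (B (Sum.inr k)) = B (Sum.inr k)) :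
    LinearMap.det f = a * d - b * c := by
  rw [← LinearMap.det_toMatrix (B.reindex (BLK_e κ))]
  have hM : LinearMap.toMatrix (B.reindex (BLK_e κ)) (B.reindex (BLK_e κ)) f =
      Matrix.blockDiagonal (fun k => if k = k₀ then !![a, b; c, d] else 1) := by
    ext ⟨i, k⟩ ⟨j, k'⟩
    rw [LinearMap.toMatrix_apply, Matrix.blockDiagonal_apply, Basis.reindex_apply,
      Basis.repr_reindex_apply]
    by_cases hk' : k' = k₀
    · subst hk'
      by_cases hk : k = k'
      · subst hk
        fin_cases j <;> fin_cases i <;>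
          simp [BLK_symm0, BLK_symm1, h1, h2, Finsupp.single_apply]
      · fin_cases j <;> fin_cases i <;>
          simp [BLK_symm0, BLK_symm1, h1, h2, Finsupp.single_apply, hk, Ne.symm hk]
    · by_cases hk : k = k'
      · subst hk
        fin_cases j <;> fin_cases i <;>
          simp [BLK_symm0, BLK_symm1, (h3 k hk').1, (h3 k hk').2, Finsupp.single_apply, hk']
      · fin_cases j <;> fin_cases i <;>
          simp [BLK_symm0, BLK_symm1, (h3 k' hk').1, (h3 k' hk').2, Finsupp.single_apply, hk, Ne.symm hk]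
  rw [hM, Matrix.det_blockDiagonal, Finset.prod_eq_single k₀]
  · rw [if_pos rfl, Matrix.det_fin_two_of]
  · intro k _ hk
    rw [if_neg hk, Matrix.det_one]
  · intro h; exact absurd (Finset.mem_univ _) h

end Cfsg.Agent.Lib.Helper9.Inv
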