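import Mathlib
import Cfsg.Agent.Lib.Helper44.InvBlocks

/-! # Inv farm (helper9), piece MATCH (helper88) -/

set_option autoImplicit false

namespace Cfsg.Agent.Lib.Helper9.Inv

/-- [MATCH] -/
theorem exists_matching {ι : Type} [Fintype ι] (π : ι → ι) (hπ : ∀ i, π (π i) = i)
    (hev : Even (Fintype.card ι)) :
    ∃ (κ : Type) (_ : Fintype κ) (e : κ ⊕ κ ≃ ι), ∀ k,
      π (e (Sum.inl k)) = e (Sum.inr k) ∨
        (π (e (Sum.inl k)) = e (Sum.inl k) ∧ π (e (Sum.inr k)) = e (Sum.inr k)) := by
  classical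
  set Mov : Finset ι := Finset.univ.filter (fun i => ¬ π i = i) with hMov
  set Fix : Finset ι := Finset.univ.filter (fun i => π i = i) with hFix
  have hmM : ∀ i, i ∈ Mov ↔ π i ≠ i := by intro i; simp [hMov]
  have hmF : ∀ i, i ∈ Fix ↔ π i = i := by intro i; simp [hFix]
  have hMs : ∀ i ∈ Mov, π i ∈ Mov := by
    intro i hi
    rw [hmM] at hi ⊢
    rw [hπ]
    exact fun h => hi h.symm
  obtain ⟨k, hk⟩ := Cfsg.Agent.Lib.Helper44.inv_even_card hπ Mov hMs (fun i hi => (hmM i).mp hi)
  have hcard : Fix.card + Mov.card = Fintype.card ι := by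
    rw [hFix, hMov, Finset.card_filter_add_card_filter_not, Finset.card_univ]
  obtain ⟨f, hf⟩ : Even Fix.card := by
    have h := hev
    rw [← hcard] at h
    exact (Nat.even_add.mp h).mpr ⟨k, hk⟩
  obtain ⟨T, hTM, hT, hTc⟩ := Cfsg.Agent.Lib.Helper44.inv_transversal hπ k Mov hMs
    (fun i hi => (hmM i).mp hi) (by omega)
  let eF : Fix ≃ Fin (f + f) := Finset.equivFinOfCardEq hf
  let g : Fin f ⊕ Fin f → ι := fun s => (eF.symm (finSumFinEquiv s)).1
  have hg : Function.Injective g := by
    intro s s' h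
    exact finSumFinEquiv.injective (eF.symm.injective (Subtype.ext h))
  have hgF : ∀ s, π (g s) = g s := fun s => (hmF _).mp (eF.symm _).2
  have hTm : ∀ t : T, π t.1 ≠ t.1 := fun t => (hmM _).mp (hTM t.2)
  have A1 : ∀ (t : T) s, t.1 ≠ g s := by
    intro t s h
    apply hTm t
    rw [h]; exact hgF s
  have A2 : ∀ (t : T) s, π t.1 ≠ g s := by
    intro t s h
    apply hTm t
    have := hgF s
    rw [← h, hπ] at this
    exact this.symm
  have A3 : ∀ t t' : T, t.1 ≠ π t'.1 := by
    intro t t' h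
    exact hT t'.1 t'.2 (h ▸ t.2)
  let φ : ((T ⊕ Fin f) ⊕ (T ⊕ Fin f)) → ι :=
    Sum.elim (Sum.elim (fun t => t.1) (fun a => g (Sum.inl a)))
      (Sum.elim (fun t => π t.1) (fun a => g (Sum.inr a)))
  have hφ : Function.Bijective φ := by
    rw [Fintype.bijective_iff_injective_and_card]
    constructor
    · rintro ((t | a) | (t | a)) ((t' | a') | (t' | a')) h
      · rw [Subtype.ext h]
      · exact absurd h (A1 _ _)
      · exact absurd h (A3 _ _)
      · exact absurd h (A1 _ _)
      · exact absurd h.symm (A1 _ _)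
      · rw [Sum.inl.inj (hg h)]
      · exact absurd h.symm (A2 _ _)
      · exact absurd (hg h) (by simp)
      · exact absurd h.symm (A3 _ _)
      · exact absurd h (A2 _ _)
      · have h' : π t.1 = π t'.1 := h
        have : t.1 = t'.1 := by rw [← hπ t.1, h', hπ]
        rw [Subtype.ext this]
      · exact absurd h (A2 _ _)
      · exact absurd h.symm (A1 _ _)
      · exact absurd (hg h) (by simp)
      · exact absurd h.symm (A2 _ _)
      · rw [Sum.inr.inj (hg h)]
    · simp only [Fintype.card_sum, Fintype.card_coe, Fintype.card_fin]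
      omega
  refine ⟨T ⊕ Fin f, inferInstance, Equiv.ofBijective φ hφ, ?_⟩
  rintro (t | a)
  · left; rfl
  · right; exact ⟨hgF _, hgF _⟩

end Cfsg.Agent.Lib.Helper9.Inv
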