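import Mathlib

set_option autoImplicit false

namespace Cfsg.Agent.Lib.Helper9.Inv

variable {F : Type*} [Field F]

theorem exists_sqrt_char_two [Fintype F] (h2 : (2 : F) = 0) (z : F) : ∃ c : F, c * c = z := by
  have hinj : Function.Injective (fun c : F => c * c) := by
    intro a b hab
    have hab' : a * a = b * b := hab
    have h : (a - b) * (a - b) = 0 := by
      have : (a - b) * (a - b) = a * a + b * b - 2 * (a * b) := by ring
      rw [this, h2, hab']
      have : b * b + b * b = 2 * (b * b) := by ring
      rw [this, h2]; ring
    have := mul_self_eq_zero.mp h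
    exact sub_eq_zero.mp this
  exact (Finite.injective_iff_surjective.mp hinj) z

end Cfsg.Agent.Lib.Helper9.Inv
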