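import Mathlib
import Cfsg.Agent.Lib.Helper9.Inv.SQ2

set_option autoImplicit false

namespace Cfsg.Agent.Lib.Helper9.Inv

variable {F : Type*} [Field F]

open Polynomial in
theorem exists_norm_eq [Fintype F] {z : F} (hz : z ≠ 0) (l : F) : ∃ a b : F, a * a - z * (b * b) = l := by
  by_cases h2 : (2 : F) = 0
  · obtain ⟨c, hc⟩ := exists_sqrt_char_two h2 l
    exact ⟨c, 0, by rw [hc]; ring⟩
  · have hodd : Fintype.card F % 2 = 1 := by
      apply FiniteField.odd_card_of_char_ne_two
      intro h
      haveI : CharP F 2 := by rw [← h]; exact ringChar.charP F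
      exact h2 (by exact_mod_cast CharP.cast_eq_zero F 2)
    have hf : (X ^ 2 : F[X]).degree = 2 := degree_X_pow 2
    have hg : (C (-z) * X ^ 2 + C 0 * X + C (-l) : F[X]).degree = 2 :=
      degree_quadratic (neg_ne_zero.mpr hz)
    obtain ⟨a, b, hab⟩ := FiniteField.exists_root_sum_quadratic hf hg hodd
    refine ⟨a, b, ?_⟩
    simp only [eval_add, eval_mul, eval_pow, eval_X, eval_C] at hab
    linear_combination hab

end Cfsg.Agent.Lib.Helper9.Inv
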