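import Mathlib
import Cfsg.Agent.Lib.Helper44.LineSys
import Cfsg.Agent.Lib.Helper44.InvBlocks
import Cfsg.Agent.Lib.Helper9.Inv.MATCH
import Cfsg.Agent.Lib.Helper9.Inv.BLK
import Cfsg.Agent.Lib.Helper9.Inv.N

/-! # Inv farm (helper9), piece CD (helper3) -/

set_option autoImplicit false

namespace Cfsg.Agent.Lib.Helper9.Inv

open Module

variable {F V : Type*} [Field F] [AddCommGroup V] [Module F V]

theorem CD_of_map [FiniteDimensional F V] {X : V →ₗ[F] V} {l : F} (hl : l ≠ 0) (f : V →ₗ[F] V)
    (hf : f ∘ₗ X = X ∘ₗ f) (hdet : LinearMap.det f = l) :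
    ∃ c : V ≃ₗ[F] V, (∀ v, c (X v) = X (c v)) ∧ LinearMap.det (c : V →ₗ[F] V) = l := by
  have h0 : LinearMap.det f ≠ 0 := by rw [hdet]; exact hl
  have hc : ((LinearMap.equivOfDetNeZero f h0 : V ≃ₗ[F] V) : V →ₗ[F] V) = f :=
    LinearEquiv.coe_ofIsUnitDet _
  refine ⟨LinearMap.equivOfDetNeZero f h0, ?_, ?_⟩
  · intro v
    have h1 : ∀ u, (LinearMap.equivOfDetNeZero f h0 : V ≃ₗ[F] V) u = f u :=
      fun u => LinearMap.congr_fun hc u
    rw [h1, h1]
    exact LinearMap.congr_fun hf v
  · rw [hc, hdet]

theorem CD_diag {ι : Type} [Fintype ι] [DecidableEq ι] (B : Basis ι F V) (w : ι → F)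
    (f : V →ₗ[F] V) (hf : ∀ i, f (B i) = w i • B i) : LinearMap.det f = ∏ i, w i := by
  rw [← LinearMap.det_toMatrix B]
  have : LinearMap.toMatrix B B f = Matrix.diagonal w := by
    ext i j
    rw [LinearMap.toMatrix_apply, hf, map_smul, B.repr_self, Matrix.diagonal_apply]
    by_cases h : i = j
    · subst h; simp
    · simp [h]
  rw [this, Matrix.det_diagonal]

theorem exists_commuting_det [Fintype F] [FiniteDimensional F V] [Nontrivial V] {X : V →ₗ[F] V}
    {z : F} (hz : z ≠ 0) (hXX : ∀ v, X (X v) = z • v) (l : F) (hl : l ≠ 0) :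
    ∃ c : V ≃ₗ[F] V, (∀ v, c (X v) = X (c v)) ∧ LinearMap.det (c : V →ₗ[F] V) = l := by
  classical
  obtain ⟨ι, _, b, π, hπ, hli, hX, hspan⟩ :=
    Cfsg.Agent.Lib.Helper44.hasLineSys hXX _ ⊤ rfl (fun _ _ => trivial)
  have hXinj : ∀ v, X v = 0 → v = 0 := by
    intro v hv
    have := hXX v
    rw [hv, map_zero] at this
    rcases smul_eq_zero.1 this.symm with h | h
    · exact absurd h hz
    · exact h
  by_cases hfix : ∃ j, π j = j
  · obtain ⟨j, hj⟩ := hfix
    let Bι : Basis ι F V := Basis.mk hli hspan.ge
    have hBι : ∀ i, Bι i = b i := fun i => by simp [Bι]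
    let w : ι → F := fun i => if i = j then l else 1
    have hwπ : ∀ i, w (π i) = w i := by
      intro i
      have : π i = j ↔ i = j := by
        constructor
        · intro h; rw [← hπ i, h, hj]
        · intro h; rw [h, hj]
      simp only [w, this]
    let f : V →ₗ[F] V := Bι.constr F (fun i => w i • b i)
    have hf : ∀ i, f (b i) = w i • b i := by
      intro i
      have := Bι.constr_basis F (fun i => w i • b i) i
      rw [hBι] at this
      exact this
    apply CD_of_map hl f
    · apply Bι.ext
      intro i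
      rw [hBι, LinearMap.comp_apply, LinearMap.comp_apply, hf, map_smul]
      obtain ⟨a, ha⟩ := Submodule.mem_span_singleton.1 (hX i)
      rw [← ha, map_smul, hf, hwπ, smul_comm]
    · rw [CD_diag Bι w f (fun i => by rw [hBι]; exact hf i)]
      simp [w]
  · push Not at hfix
    have hev : Even (Fintype.card ι) := by
      rw [← Finset.card_univ]
      exact Cfsg.Agent.Lib.Helper44.inv_even_card hπ Finset.univ (fun _ _ => Finset.mem_univ _)
        (fun i _ => hfix i)
    obtain ⟨κ, _, e, he⟩ := exists_matching π hπ hev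
    have he' : ∀ k, π (e (Sum.inl k)) = e (Sum.inr k) := by
      intro k
      rcases he k with h | h
      · exact h
      · exact absurd h.1 (hfix _)
    let B0 : Basis (κ ⊕ κ) F V := (Basis.mk hli hspan.ge).reindex e.symm
    have hB0 : ∀ s, B0 s = b (e s) := by
      intro s
      simp [B0]
    have hc : ∀ k, ∃ c : F, c • b (e (Sum.inr k)) = X (b (e (Sum.inl k))) := by
      intro k
      have h := hX (e (Sum.inl k))
      rw [he', Submodule.mem_span_singleton] at h
      exact h
    choose c hc using hc
    have hc0 : ∀ k, c k ≠ 0 := by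
      intro k h0
      have h := hc k
      rw [h0, zero_smul] at h
      exact hli.ne_zero _ (hXinj _ h.symm)
    let B : Basis (κ ⊕ κ) F V :=
      B0.unitsSMul (Sum.elim (fun _ => 1) (fun k => Units.mk0 (c k) (hc0 k)))
    have hBr : ∀ k, B (Sum.inr k) = X (B (Sum.inl k)) := by
      intro k
      simp only [B]
      rw [Basis.unitsSMul_apply, Basis.unitsSMul_apply, hB0, hB0]
      simp only [Sum.elim_inr, Sum.elim_inl, one_smul]
      rw [← hc k]
      rfl
    have hXr : ∀ k, X (B (Sum.inr k)) = z • B (Sum.inl k) := by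
      intro k; rw [hBr, hXX]
    have hne : Nonempty κ := by
      by_contra hemp
      rw [not_nonempty_iff] at hemp
      have : IsEmpty (κ ⊕ κ) := inferInstance
      have hsub : Subsingleton V := by
        constructor
        intro x y
        apply B.ext_elem
        intro i
        exact this.elim i
      exact not_subsingleton V hsub
    obtain ⟨k₀⟩ := hne
    obtain ⟨α, β, hαβ⟩ := exists_norm_eq hz l
    let f : V →ₗ[F] V := B.constr F (Sum.elim
      (fun k => if k = k₀ then α • B (Sum.inl k) + β • B (Sum.inr k) else B (Sum.inl k))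
      (fun k => if k = k₀ then (β * z) • B (Sum.inl k) + α • B (Sum.inr k) else B (Sum.inr k)))
    have hfl : ∀ k, f (B (Sum.inl k)) =
        if k = k₀ then α • B (Sum.inl k) + β • B (Sum.inr k) else B (Sum.inl k) := by
      intro k
      simp only [f]
      rw [B.constr_basis]
      rfl
    have hfr : ∀ k, f (B (Sum.inr k)) =
        if k = k₀ then (β * z) • B (Sum.inl k) + α • B (Sum.inr k) else B (Sum.inr k) := by
      intro k
      simp only [f]
      rw [B.constr_basis]
      rfl
    apply CD_of_map hl f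
    · apply B.ext
      intro s
      rcases s with k | k
      · rw [LinearMap.comp_apply, LinearMap.comp_apply, ← hBr, hfl, hfr]
        by_cases hk : k = k₀
        · rw [if_pos hk, if_pos hk, map_add, map_smul, map_smul, ← hBr, hXr]
          module
        · rw [if_neg hk, if_neg hk, hBr]
      · rw [LinearMap.comp_apply, LinearMap.comp_apply, hXr, map_smul, hfl, hfr]
        by_cases hk : k = k₀
        · rw [if_pos hk, if_pos hk, map_add, map_smul, map_smul, ← hBr, hXr]
          module
        · rw [if_neg hk, if_neg hk, hXr]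
    · rw [det_plane_map B k₀ α (β * z) β α f (by rw [hfl, if_pos rfl]) (by rw [hfr, if_pos rfl])
        (fun k hk => ⟨by rw [hfl, if_neg hk], by rw [hfr, if_neg hk]⟩)]
      linear_combination hαβ

end Cfsg.Agent.Lib.Helper9.Inv
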