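import Mathlib
import Cfsg.Agent.Lib.Helper9.Inv.CD

set_option autoImplicit false

namespace Cfsg.Agent.Lib.Helper9.Inv

open Module Matrix

variable {F : Type*} [Field F]

/-- basic facts on a determinant one matrix whose square is a scalar -/
theorem sq_facts {n : ℕ} (hn : 0 < n) (x : Matrix.SpecialLinearGroup (Fin n) F) {z : F}
    (hz : ((x ^ 2 : Matrix.SpecialLinearGroup (Fin n) F) : Matrix (Fin n) (Fin n) F)
      = z • (1 : Matrix (Fin n) (Fin n) F)) :
    z ≠ 0 ∧ (∀ v, Matrix.toLin' (x : Matrix (Fin n) (Fin n) F)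
      (Matrix.toLin' (x : Matrix (Fin n) (Fin n) F) v) = z • v) := by
  have hne : Nonempty (Fin n) := ⟨⟨0, hn⟩⟩
  constructor
  · rintro rfl
    have h1 := (x ^ 2).det_coe
    rw [hz, zero_smul, Matrix.det_zero] at h1
    exact zero_ne_one h1
  · intro v
    rw [Matrix.toLin'_apply, Matrix.toLin'_apply, Matrix.mulVec_mulVec]
    have : (x : Matrix (Fin n) (Fin n) F) * (x : Matrix (Fin n) (Fin n) F)
        = z • (1 : Matrix (Fin n) (Fin n) F) := by
      rw [← hz, pow_two]; rfl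
    rw [this, Matrix.smul_mulVec, Matrix.one_mulVec]

/-- [ADJ] a conjugating linear equivalence can be replaced by a matrix of determinant one. -/
theorem exists_SL_conj [Fintype F] {n : ℕ} (hn : 0 < n) (x : Matrix.SpecialLinearGroup (Fin n) F)
    {z : F} (hz : z ≠ 0)
    (hXX : ∀ v, Matrix.toLin' (x : Matrix (Fin n) (Fin n) F)
      (Matrix.toLin' (x : Matrix (Fin n) (Fin n) F) v) = z • v)
    (g : (Fin n → F) ≃ₗ[F] (Fin n → F)) :
    ∃ P : Matrix.SpecialLinearGroup (Fin n) F, ∀ u,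
      ((P⁻¹ * x * P : Matrix.SpecialLinearGroup (Fin n) F) : Matrix (Fin n) (Fin n) F) *ᵥ u
        = g.symm (Matrix.toLin' (x : Matrix (Fin n) (Fin n) F) (g u)) := by
  classical
  have hne : Nonempty (Fin n) := ⟨⟨0, hn⟩⟩
  haveI : Nontrivial (Fin n → F) := inferInstance
  have hdg : LinearMap.det (g : (Fin n → F) →ₗ[F] (Fin n → F)) ≠ 0 :=
    (LinearEquiv.isUnit_det' g).ne_zero
  obtain ⟨c, hc1, hc2⟩ := exists_commuting_det hz hXX
    (LinearMap.det (g : (Fin n → F) →ₗ[F] (Fin n → F)))⁻¹ (inv_ne_zero hdg)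
  set h : (Fin n → F) ≃ₗ[F] (Fin n → F) := g.trans c with hh
  have hdet : (LinearMap.toMatrix' (h : (Fin n → F) →ₗ[F] (Fin n → F))).det = 1 := by
    rw [LinearMap.det_toMatrix']
    have : (h : (Fin n → F) →ₗ[F] (Fin n → F))
        = (c : (Fin n → F) →ₗ[F] (Fin n → F)) ∘ₗ (g : (Fin n → F) →ₗ[F] (Fin n → F)) := by
      ext; simp [hh]
    rw [this, LinearMap.det_comp, hc2, inv_mul_cancel₀ hdg]
  refine ⟨⟨LinearMap.toMatrix' (h : (Fin n → F) →ₗ[F] (Fin n → F)), hdet⟩, fun u => ?_⟩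
  set P : Matrix.SpecialLinearGroup (Fin n) F :=
    ⟨LinearMap.toMatrix' (h : (Fin n → F) →ₗ[F] (Fin n → F)), hdet⟩ with hP
  have hPv : ∀ w, (P : Matrix (Fin n) (Fin n) F) *ᵥ w = h w := by
    intro w
    show (LinearMap.toMatrix' (h : (Fin n → F) →ₗ[F] (Fin n → F))) *ᵥ w = h w
    rw [← Matrix.toLin'_apply, Matrix.toLin'_toMatrix']
    rfl
  have hPi : ∀ w, ((P⁻¹ : Matrix.SpecialLinearGroup (Fin n) F) : Matrix (Fin n) (Fin n) F) *ᵥ w
      = h.symm w := by
    intro w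
    apply h.injective
    rw [← hPv, Matrix.mulVec_mulVec, ← Matrix.SpecialLinearGroup.coe_mul, mul_inv_cancel,
      Matrix.SpecialLinearGroup.coe_one, Matrix.one_mulVec, LinearEquiv.apply_symm_apply]
  rw [Matrix.SpecialLinearGroup.coe_mul, Matrix.SpecialLinearGroup.coe_mul,
    ← Matrix.mulVec_mulVec, ← Matrix.mulVec_mulVec, hPv, hPi, ← Matrix.toLin'_apply]
  show g.symm (c.symm _) = _
  congr 1
  apply c.injective
  rw [LinearEquiv.apply_symm_apply, hc1]
  rfl

end Cfsg.Agent.Lib.Helper9.Inv
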