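import Mathlib
import Cfsg.Agent.Lib.Helper9.Inv.Defs

set_option autoImplicit false

namespace Cfsg.Agent.Lib.Helper9.Inv

open Module

variable {F V : Type*} [Field F] [AddCommGroup V] [Module F V]

theorem det_of_eigenbasis {p m : ℕ} (B : Basis (Fin p ⊕ Fin m) F V) {X : V →ₗ[F] V} {c : F}
    (h1 : ∀ i, X (B (Sum.inl i)) = c • B (Sum.inl i))
    (h2 : ∀ j, X (B (Sum.inr j)) = (-c) • B (Sum.inr j)) :
    LinearMap.det X = c ^ p * (-c) ^ m := by
  rw [← LinearMap.det_toMatrix B]
  have hM : LinearMap.toMatrix B B X = Matrix.diagonal (Sum.elim (fun _ => c) (fun _ => -c)) := by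
    ext i j
    rw [LinearMap.toMatrix_apply, Matrix.diagonal_apply]
    rcases j with j | j
    · rw [h1, map_smul, B.repr_self, Finsupp.smul_apply, Finsupp.single_apply]
      by_cases hij : i = Sum.inl j
      · subst hij; simp
      · rw [if_neg hij, if_neg (fun h => hij h.symm)]; simp
    · rw [h2, map_smul, B.repr_self, Finsupp.smul_apply, Finsupp.single_apply]
      by_cases hij : i = Sum.inr j
      · subst hij; simp
      · rw [if_neg hij, if_neg (fun h => hij h.symm)]; simp
  rw [hM, Matrix.det_diagonal, Fintype.prod_sum_type]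
  simp

end Cfsg.Agent.Lib.Helper9.Inv
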