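import Mathlib
import Cfsg.Agent.Lib.Helper9.Inv.Defs

set_option autoImplicit false

namespace Cfsg.Agent.Lib.Helper9.Inv

open Module

variable {F V : Type*} [Field F] [AddCommGroup V] [Module F V]

theorem exists_eigenbasis [FiniteDimensional F V] (h2 : (2 : F) ≠ 0) {X : V →ₗ[F] V} {c : F}
    (hc : c ≠ 0) (hXX : ∀ v, X (X v) = (c * c) • v) :
    ∃ (p m : ℕ) (B : Basis (Fin p ⊕ Fin m) F V), (∀ i, X (B (Sum.inl i)) = c • B (Sum.inl i)) ∧
      (∀ j, X (B (Sum.inr j)) = (-c) • B (Sum.inr j)) := by
  let Ep : Submodule F V := LinearMap.ker (X - c • LinearMap.id)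
  let Em : Submodule F V := LinearMap.ker (X + c • LinearMap.id)
  have hEp : ∀ v, v ∈ Ep ↔ X v = c • v := by
    intro v
    show v ∈ LinearMap.ker (X - c • LinearMap.id) ↔ _
    rw [LinearMap.mem_ker, LinearMap.sub_apply, LinearMap.smul_apply, LinearMap.id_apply, sub_eq_zero]
  have hEm : ∀ v, v ∈ Em ↔ X v = (-c) • v := by
    intro v
    show v ∈ LinearMap.ker (X + c • LinearMap.id) ↔ _
    rw [LinearMap.mem_ker, LinearMap.add_apply, LinearMap.smul_apply, LinearMap.id_apply, neg_smul,
      add_eq_zero_iff_eq_neg]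
  have h2c : (2 * c : F) ≠ 0 := mul_ne_zero h2 hc
  have hcompl : IsCompl Ep Em := by
    constructor
    · rw [Submodule.disjoint_def]
      intro v hp hm
      rw [hEp] at hp
      rw [hEm] at hm
      have h3 : (2 * c) • v = 0 := by
        have : c • v = (-c) • v := hp.symm.trans hm
        have h4 : (2 * c) • v = c • v - (-c) • v := by module
        rw [h4, this, sub_self]
      exact (smul_eq_zero.mp h3).resolve_left h2c
    · rw [codisjoint_iff, eq_top_iff]
      intro v _
      have h3 : v = (2 * c)⁻¹ • (X v + c • v) + (-(2 * c)⁻¹) • (X v - c • v) := by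
        have h4 : (2 * c)⁻¹ • (X v + c • v) + (-(2 * c)⁻¹) • (X v - c • v) = ((2 * c)⁻¹ * (2 * c)) • v := by
          module
        rw [h4, inv_mul_cancel₀ h2c, one_smul]
      rw [h3]
      refine Submodule.add_mem_sup (Submodule.smul_mem _ _ ?_) (Submodule.smul_mem _ _ ?_)
      · rw [hEp, map_add, map_smul, hXX]; module
      · rw [hEm, map_sub, map_smul, hXX]; module
  let B : Basis (Fin (finrank F Ep) ⊕ Fin (finrank F Em)) F V :=
    ((Module.finBasis F Ep).prod (Module.finBasis F Em)).map (Submodule.prodEquivOfIsCompl Ep Em hcompl)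
  refine ⟨_, _, B, ?_, ?_⟩
  · intro i
    have hB : B (Sum.inl i) = (Module.finBasis F Ep i : V) := by
      show ((Module.finBasis F Ep).prod (Module.finBasis F Em)).map
        (Submodule.prodEquivOfIsCompl Ep Em hcompl) (Sum.inl i) = _
      rw [Basis.map_apply, Submodule.coe_prodEquivOfIsCompl', Basis.prod_apply_inl_fst,
        Basis.prod_apply_inl_snd]
      simp
    rw [hB]
    exact (hEp _).mp (Module.finBasis F Ep i).2
  · intro j
    have hB : B (Sum.inr j) = (Module.finBasis F Em j : V) := by
      show ((Module.finBasis F Ep).prod (Module.finBasis F Em)).map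
        (Submodule.prodEquivOfIsCompl Ep Em hcompl) (Sum.inr j) = _
      rw [Basis.map_apply, Submodule.coe_prodEquivOfIsCompl', Basis.prod_apply_inr_fst,
        Basis.prod_apply_inr_snd]
      simp
    rw [hB]
    exact (hEm _).mp (Module.finBasis F Em j).2

end Cfsg.Agent.Lib.Helper9.Inv
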