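import Mathlib
import Cfsg.Agent.Lib.Helper44.LineSys
import Cfsg.Agent.Lib.Helper44.InvBlocks
import Cfsg.Agent.Lib.Helper9.Inv.MATCH

/-! # Inv farm (helper9), piece FREE (helper88) -/

set_option autoImplicit false

namespace Cfsg.Agent.Lib.Helper9.Inv

open Module

variable {F V : Type*} [Field F] [AddCommGroup V] [Module F V]

/-- [FREE] -/
theorem exists_free_basis [FiniteDimensional F V] {X : V →ₗ[F] V} {z : F} (hz : z ≠ 0)
    (hXX : ∀ v, X (X v) = z • v) (hne : ∀ v : V, v ≠ 0 → ∀ c : F, X v ≠ c • v) :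
    ∃ (κ : Type) (_ : Fintype κ) (B : Basis (κ ⊕ κ) F V), ∀ k, B (Sum.inr k) = X (B (Sum.inl k)) := by
  classical
  obtain ⟨ι, _, b, π, hπ, hli, hX, hspan⟩ :=
    Cfsg.Agent.Lib.Helper44.hasLineSys hXX _ ⊤ rfl (fun _ _ => trivial)
  have hfp : ∀ i, π i ≠ i := by
    intro i hi
    have h := hX i
    rw [hi, Submodule.mem_span_singleton] at h
    obtain ⟨c, hc⟩ := h
    exact hne (b i) (hli.ne_zero i) c hc.symm
  have hev : Even (Fintype.card ι) := by
    rw [← Finset.card_univ]
    exact Cfsg.Agent.Lib.Helper44.inv_even_card hπ Finset.univ (fun _ _ => Finset.mem_univ _)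
      (fun i _ => hfp i)
  obtain ⟨κ, _, e, he⟩ := exists_matching π hπ hev
  have he' : ∀ k, π (e (Sum.inl k)) = e (Sum.inr k) := by
    intro k
    rcases he k with h | h
    · exact h
    · exact absurd h.1 (hfp _)
  let B0 : Basis (κ ⊕ κ) F V := (Basis.mk hli hspan.ge).reindex e.symm
  have hB0 : ∀ s, B0 s = b (e s) := by
    intro s
    simp [B0]
  have hc : ∀ k, ∃ c : F, c • b (e (Sum.inr k)) = X (b (e (Sum.inl k))) := by
    intro k
    have h := hX (e (Sum.inl k))
    rw [he', Submodule.mem_span_singleton] at h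
    exact h
  choose c hc using hc
  have hc0 : ∀ k, c k ≠ 0 := by
    intro k h0
    have h := hc k
    rw [h0, zero_smul] at h
    exact hne (b (e (Sum.inl k))) (hli.ne_zero _) 0 (by rw [zero_smul, ← h])
  refine ⟨κ, inferInstance,
    B0.unitsSMul (Sum.elim (fun _ => 1) (fun k => Units.mk0 (c k) (hc0 k))), ?_⟩
  intro k
  rw [Basis.unitsSMul_apply, Basis.unitsSMul_apply, hB0, hB0]
  simp only [Sum.elim_inr, Sum.elim_inl, one_smul]
  rw [← hc k]
  rfl

end Cfsg.Agent.Lib.Helper9.Inv
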