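import Mathlib
import Cfsg.Agent.Lib.Helper9.Inv.Defs
import Cfsg.Agent.Lib.Helper44.LineSys
import Cfsg.Agent.Lib.Helper9.Inv.MATCH

/-! # Inv farm (helper9), piece PS2 (helper88) -/

set_option autoImplicit false

namespace Cfsg.Agent.Lib.Helper9.Inv

open Module

variable {F V : Type*} [Field F] [AddCommGroup V] [Module F V]

/-- [PS2] -/
theorem hasPlaneSys_char_two [FiniteDimensional F V] (h2 : (2 : F) = 0) {X : V →ₗ[F] V} {c : F}
    (hc : c ≠ 0) (hXX : ∀ v, X (X v) = (c * c) • v) (hev : Even (finrank F V)) :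
    HasPlaneSys X (c * c) := by
  classical
  obtain ⟨ι, _, b, π, hπ, hli, hX, hspan⟩ :=
    Cfsg.Agent.Lib.Helper44.hasLineSys hXX _ ⊤ rfl (fun _ _ => trivial)
  have hcard : finrank F V = Fintype.card ι := finrank_eq_card_basis (Basis.mk hli hspan.ge)
  rw [hcard] at hev
  obtain ⟨κ, _, e, he⟩ := exists_matching π hπ hev
  have ha : ∀ i, ∃ a : F, a • b (π i) = X (b i) := fun i => Submodule.mem_span_singleton.mp (hX i)
  choose a ha using ha
  have haa : ∀ i, a i * a (π i) = c * c := by
    intro i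
    have h := hXX (b i)
    rw [← ha i, map_smul, ← ha (π i), hπ, smul_smul] at h
    exact smul_left_injective F (hli.ne_zero i) h
  let B : Basis (κ ⊕ κ) F V := (Basis.mk hli hspan.ge).reindex e.symm
  have hB : ∀ s, B s = b (e s) := by
    intro s
    simp [B]
  have key : ∀ k, ∃ α β γ δ : F,
      X (B (Sum.inl k)) = α • B (Sum.inl k) + γ • B (Sum.inr k) ∧
      X (B (Sum.inr k)) = β • B (Sum.inl k) + δ • B (Sum.inr k) ∧ α * δ - β * γ = c * c := by
    intro k
    rcases he k with h | ⟨h, h'⟩
    · have h' : π (e (Sum.inr k)) = e (Sum.inl k) := by rw [← h, hπ]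
      refine ⟨0, a (e (Sum.inr k)), a (e (Sum.inl k)), 0, ?_, ?_, ?_⟩
      · rw [hB, hB, ← ha, h, zero_smul, zero_add]
      · rw [hB, hB, ← ha, h', zero_smul, add_zero]
      · have := haa (e (Sum.inl k))
        rw [h] at this
        linear_combination (-1 : F) * this - (c * c) * h2
    · have e1 : ∀ i, π i = i → a i = c := by
        intro i hi
        have := haa i
        rw [hi] at this
        have h0 : (a i - c) * (a i - c) = 0 := by
          linear_combination this + (c * c - a i * c) * h2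
        exact sub_eq_zero.mp (mul_self_eq_zero.mp h0)
      refine ⟨c, 0, 0, c, ?_, ?_, ?_⟩
      · rw [hB, hB, ← ha, h, e1 _ h, zero_smul, add_zero]
      · rw [hB, hB, ← ha, h', e1 _ h', zero_smul, zero_add]
      · ring
  choose α β γ δ k1 k2 k3 using key
  exact ⟨κ, inferInstance, B, α, β, γ, δ, k1, k2, k3⟩

end Cfsg.Agent.Lib.Helper9.Inv
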