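import Mathlib

set_option autoImplicit false

namespace Cfsg.Agent.Lib.Helper9.Inv

open Module

variable {F V : Type*} [Field F] [AddCommGroup V] [Module F V]

/-- [PSE] -/
theorem exists_scalar_planes {p m : ℕ} (hp : Even p) (hm : Even m) (B : Basis (Fin p ⊕ Fin m) F V)
    {X : V →ₗ[F] V} {c : F} (h1 : ∀ i, X (B (Sum.inl i)) = c • B (Sum.inl i))
    (h2 : ∀ j, X (B (Sum.inr j)) = (-c) • B (Sum.inr j)) :
    ∃ (κ : Type) (_ : Fintype κ) (B' : Basis (κ ⊕ κ) F V) (ε : κ → F), (∀ k, ε k * ε k = c * c) ∧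
      (∀ k, X (B' (Sum.inl k)) = ε k • B' (Sum.inl k)) ∧
      (∀ k, X (B' (Sum.inr k)) = ε k • B' (Sum.inr k)) := by
  obtain ⟨a, rfl⟩ := hp
  obtain ⟨b, rfl⟩ := hm
  let e : (Fin (a + a) ⊕ Fin (b + b)) ≃ ((Fin a ⊕ Fin b) ⊕ (Fin a ⊕ Fin b)) :=
    (Equiv.sumCongr finSumFinEquiv.symm finSumFinEquiv.symm).trans (Equiv.sumSumSumComm _ _ _ _)
  refine ⟨Fin a ⊕ Fin b, inferInstance, B.reindex e, Sum.elim (fun _ => c) (fun _ => -c), ?_, ?_, ?_⟩
  · rintro (i | j) <;> simp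
  · rintro (i | j)
    · rw [Basis.reindex_apply]
      exact h1 _
    · rw [Basis.reindex_apply]
      exact h2 _
  · rintro (i | j)
    · rw [Basis.reindex_apply]
      exact h1 _
    · rw [Basis.reindex_apply]
      exact h2 _

end Cfsg.Agent.Lib.Helper9.Inv
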