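import Mathlib
import Cfsg.Agent.Lib.Helper9.Inv.Defs
import Cfsg.Agent.Lib.Helper9.Inv.Adj
import Cfsg.Agent.Lib.Helper9.Inv.EIG
import Cfsg.Agent.Lib.Helper9.Inv.DET
import Cfsg.Agent.Lib.Helper9.Inv.PSE
import Cfsg.Agent.Lib.Helper9.Inv.A2
import Cfsg.Agent.Lib.Helper9.Inv.SQ2
import Cfsg.Agent.Lib.Helper9.Inv.PS2
import Cfsg.Agent.Lib.Helper9.Inv.FREE

set_option autoImplicit false

namespace Cfsg.Agent.Lib.Helper9.Inv

open Module Matrix

variable {F V : Type*} [Field F] [AddCommGroup V] [Module F V]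

theorem odd_card_of_two_ne [Fintype F] (h2 : (2 : F) ≠ 0) : Odd (Fintype.card F) := by
  rw [Nat.odd_iff]
  apply FiniteField.odd_card_of_char_ne_two
  intro h
  haveI : CharP F 2 := by
    have := ringChar.charP F
    rwa [h] at this
  exact h2 (CharP.cast_eq_zero F 2 |> fun h => by simpa using h)

/-- split type: both eigenspaces have even dimension -/
theorem exists_scalar_planes_of_sq [Fintype F] [FiniteDimensional F V] (h2 : (2 : F) ≠ 0)
    {X : V →ₗ[F] V} {c : F} (hc : c ≠ 0) (hXX : ∀ v, X (X v) = (c * c) • v)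
    (hdet : LinearMap.det X = 1) (hev : Even (finrank F V)) (hV : finrank F V ≠ 0)
    (h : padicValNat 2 (Fintype.card F - 1) ≤ padicValNat 2 (finrank F V)) :
    ∃ (κ : Type) (_ : Fintype κ) (B' : Basis (κ ⊕ κ) F V) (ε : κ → F), (∀ k, ε k * ε k = c * c) ∧
      (∀ k, X (B' (Sum.inl k)) = ε k • B' (Sum.inl k)) ∧
      (∀ k, X (B' (Sum.inr k)) = ε k • B' (Sum.inr k)) := by
  obtain ⟨p, m, B, h1, h2'⟩ := exists_eigenbasis h2 hc hXX
  have hd := det_of_eigenbasis B h1 h2'
  have hpm : finrank F V = p + m := by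
    rw [finrank_eq_card_basis B]; simp
  have hm : Even m := by
    by_contra hm
    rw [Nat.not_even_iff_odd] at hm
    apply pow_ne_neg_one (odd_card_of_two_ne h2) (finrank F V) hV h c
    rw [hdet, neg_pow, hm.neg_one_pow] at hd
    rw [hpm, pow_add]
    linear_combination hd
  have hp : Even p := by
    rw [hpm] at hev
    exact (Nat.even_add.1 hev).2 hm
  exact exists_scalar_planes hp hm B h1 h2'

theorem no_eigen_of_nonsquare {X : V →ₗ[F] V} {z : F} (hXX : ∀ v, X (X v) = z • v)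
    (hz : ∀ s : F, s * s ≠ z) : ∀ v : V, v ≠ 0 → ∀ c : F, X v ≠ c • v := by
  intro v hv c hc
  have h1 := hXX v
  rw [hc, map_smul, hc, smul_smul] at h1
  have h3 : (c * c - z) • v = 0 := by rw [sub_smul, h1, sub_self]
  rcases smul_eq_zero.1 h3 with h4 | h4
  · exact hz c (sub_eq_zero.1 h4)
  · exact hv h4

/-- a plane system exists under the arithmetic condition -/
theorem exists_planeSys [Fintype F] [FiniteDimensional F V]
    {X : V →ₗ[F] V} {z : F} (hz : z ≠ 0) (hXX : ∀ v, X (X v) = z • v)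
    (hdet : LinearMap.det X = 1) (hev : Even (finrank F V)) (hV : finrank F V ≠ 0)
    (h : padicValNat 2 (Fintype.card F - 1) ≤ padicValNat 2 (finrank F V)) :
    ∃ μ : F, μ ≠ 0 ∧ HasPlaneSys X μ := by
  by_cases h2 : (2 : F) = 0
  · obtain ⟨c, rfl⟩ := exists_sqrt_char_two h2 z
    have hc : c ≠ 0 := by rintro rfl; simp at hz
    exact ⟨c * c, hz, hasPlaneSys_char_two h2 hc hXX hev⟩
  · by_cases hs : ∃ c : F, c * c = z
    · obtain ⟨c, rfl⟩ := hs
      have hc : c ≠ 0 := by rintro rfl; simp at hz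
      obtain ⟨κ, _, B', ε, e1, e2, e3⟩ := exists_scalar_planes_of_sq h2 hc hXX hdet hev hV h
      refine ⟨c * c, hz, κ, inferInstance, B', ε, fun _ => 0, fun _ => 0, ε, ?_, ?_, ?_⟩
      · intro k; rw [e2, zero_smul, add_zero]
      · intro k; rw [e3, zero_smul, zero_add]
      · intro k; rw [e1]; ring
    · push Not at hs
      obtain ⟨κ, _, B, hB⟩ := exists_free_basis hz hXX (no_eigen_of_nonsquare hXX hs)
      refine ⟨-z, neg_ne_zero.2 hz, κ, inferInstance, B, fun _ => 0, fun _ => z, fun _ => 1,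
        fun _ => 0, ?_, ?_, ?_⟩
      · intro k; rw [hB, zero_smul, zero_add, one_smul]
      · intro k; rw [hB, hXX, zero_smul, add_zero]
      · intro k; ring

end Cfsg.Agent.Lib.Helper9.Inv
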