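import Mathlib

/-! # Inv farm (helper9), piece C1 (helper88) -/

set_option autoImplicit false

namespace Cfsg.Agent.Lib.Helper9.Inv

open Module

variable {F V : Type*} [Field F] [AddCommGroup V] [Module F V]

/-- [C1] -/
theorem not_similitude_of_reflection [FiniteDimensional F V] (h2 : (2 : F) ≠ 0)
    (B₀ : LinearMap.BilinForm F V) (hA : B₀.IsAlt) (hN : B₀.Nondegenerate)
    (hdim : 3 ≤ finrank F V) {Y : V →ₗ[F] V} {c μ : F} (hc : c ≠ 0) {u : V} (hu : u ≠ 0)
    (hYu : Y u = (-c) • u) (W : Submodule F V) (hW : ∀ w ∈ W, Y w = c • w)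
    (hsup : ∀ v, ∃ a : F, ∃ w ∈ W, v = a • u + w)
    (hsim : ∀ v w, B₀ (Y v) (Y w) = μ * B₀ v w) : False := by
  have hsep : ∀ x : V, (∀ y, B₀ x y = 0) → x = 0 := hN.1
  by_cases hcase : ∃ w ∈ W, ∃ w' ∈ W, B₀ w w' ≠ 0
  · obtain ⟨w, hw, w', hw', hne⟩ := hcase
    have hμ : μ = c * c := by
      have h := hsim w w'
      rw [hW w hw, hW w' hw', map_smul, map_smul, LinearMap.smul_apply, smul_eq_mul,
        smul_eq_mul] at h
      have : (c * c - μ) * B₀ w w' = 0 := by linear_combination h
      rcases mul_eq_zero.mp this with h0 | h0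
      · exact (sub_eq_zero.mp h0).symm
      · exact absurd h0 hne
    apply hu
    apply hsep
    intro v
    obtain ⟨a, x, hx, rfl⟩ := hsup v
    have h := hsim u x
    rw [hYu, hW x hx, map_smul, map_smul, LinearMap.smul_apply, smul_eq_mul, smul_eq_mul, hμ] at h
    have h0 : (2 * (c * c)) * B₀ u x = 0 := by linear_combination (-1 : F) * h
    have h1 : B₀ u x = 0 := by
      rcases mul_eq_zero.mp h0 with h3 | h3
      · exact absurd h3 (mul_ne_zero h2 (mul_ne_zero hc hc))
      · exact h3
    rw [map_add, map_smul, hA.self_eq_zero, h1, smul_zero, add_zero]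
  · push Not at hcase
    have hWdim : 2 ≤ finrank F W := by
      have htop : (⊤ : Submodule F V) = Submodule.span F {u} ⊔ W := by
        symm
        rw [eq_top_iff]
        intro v _
        obtain ⟨a, x, hx, rfl⟩ := hsup v
        exact Submodule.add_mem_sup (Submodule.smul_mem _ _ (Submodule.mem_span_singleton_self u)) hx
      have h1 := Submodule.finrank_add_le_finrank_add_finrank (Submodule.span F {u}) W
      rw [← htop, finrank_top, finrank_span_singleton hu] at h1
      omega
    let φ : W →ₗ[F] F := (B₀ u).comp W.subtype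
    have hker : LinearMap.ker φ ≠ ⊥ := by
      intro hb
      have h1 := LinearMap.finrank_range_add_finrank_ker φ
      rw [hb, finrank_bot, add_zero] at h1
      have h3 : finrank F (LinearMap.range φ) ≤ 1 := by
        have := Submodule.finrank_le (LinearMap.range φ)
        rwa [finrank_self] at this
      omega
    obtain ⟨w, hw, hw0⟩ := Submodule.exists_mem_ne_zero_of_ne_bot hker
    have huw : B₀ u w.1 = 0 := hw
    apply hw0
    apply Subtype.ext
    apply hsep
    intro v
    obtain ⟨a, x, hx, rfl⟩ := hsup v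
    have h1 : B₀ w.1 u = 0 := by
      rw [← neg_eq_zero, hA.neg_eq, huw]
    rw [map_add, map_smul, h1, hcase w.1 w.2 x hx, smul_zero, add_zero]

end Cfsg.Agent.Lib.Helper9.Inv
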