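import Mathlib
import Cfsg.Agent.Lib.Helper9.Inv.Defs
import Cfsg.Agent.Lib.Helper9.Inv.FREE

set_option autoImplicit false

namespace Cfsg.Agent.Lib.Helper9.Inv

open Module

variable {F V : Type*} [Field F] [AddCommGroup V] [Module F V]

theorem CONJ_no_eig {η : V →ₗ[F] V} {D : F} (hD : ∀ s : F, s * s ≠ D) (h0 : ∀ v, η (η v) = D • v) :
    ∀ v : V, v ≠ 0 → ∀ c : F, η v ≠ c • v := by
  intro v hv c hc
  have h1 := h0 v
  rw [hc, map_smul, hc, smul_smul] at h1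
  have h2 : (c * c - D) • v = 0 := by rw [sub_smul, h1, sub_self]
  exact hD c (sub_eq_zero.mp ((smul_eq_zero.mp h2).resolve_right hv))

theorem exists_conj_of_sq [FiniteDimensional F V] {η₀ η₁ : V →ₗ[F] V} {D : F}
    (hD : ∀ s : F, s * s ≠ D) (h0 : ∀ v, η₀ (η₀ v) = D • v) (h1 : ∀ v, η₁ (η₁ v) = D • v) :
    ∃ g : V ≃ₗ[F] V, ∀ v, g (η₀ v) = η₁ (g v) := by
  have hD0 : D ≠ 0 := fun h => hD 0 (by rw [h, mul_zero])
  obtain ⟨κ0, _, B0, hB0⟩ := exists_free_basis hD0 h0 (CONJ_no_eig hD h0)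
  obtain ⟨κ1, _, B1, hB1⟩ := exists_free_basis hD0 h1 (CONJ_no_eig hD h1)
  have hcard : Fintype.card κ0 = Fintype.card κ1 := by
    have e0 := Module.finrank_eq_card_basis B0
    have e1 := Module.finrank_eq_card_basis B1
    rw [Fintype.card_sum] at e0 e1
    omega
  let σ : κ0 ≃ κ1 := Fintype.equivOfCardEq hcard
  let g := B0.equiv B1 (Equiv.sumCongr σ σ)
  have hgl : ∀ k, g (B0 (Sum.inl k)) = B1 (Sum.inl (σ k)) := fun k => by simp [g]
  have hgr : ∀ k, g (B0 (Sum.inr k)) = B1 (Sum.inr (σ k)) := fun k => by simp [g]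
  refine ⟨g, ?_⟩
  have hmaps : (g : V →ₗ[F] V) ∘ₗ η₀ = η₁ ∘ₗ (g : V →ₗ[F] V) := by
    apply B0.ext
    rintro (k | k)
    · show g (η₀ (B0 (Sum.inl k))) = η₁ (g (B0 (Sum.inl k)))
      rw [← hB0, hgr, hgl, hB1]
    · show g (η₀ (B0 (Sum.inr k))) = η₁ (g (B0 (Sum.inr k)))
      rw [hgr, hB0, h0, map_smul, hgl, hB1, h1]
  intro v
  exact LinearMap.congr_fun hmaps v

end Cfsg.Agent.Lib.Helper9.Inv
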