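import Mathlib
import Cfsg.Agent.Lib.Helper9.Inv.Defs

set_option autoImplicit false

namespace Cfsg.Agent.Lib.Helper9.Inv

open Module

variable {F V : Type*} [Field F] [AddCommGroup V] [Module F V]

theorem CONJ2_li {ω : V →ₗ[F] V} {t d : F}
    (hirr : ∀ s : F, s * s - t * s + d ≠ 0) (h0 : ∀ v, ω (ω v) = t • ω v - d • v) {e : V} (he : e ≠ 0) :
    LinearIndependent F ![e, ω e] := by
  rw [LinearIndependent.pair_iff]
  intro a b hab
  have hb : b = 0 := by
    by_contra hb
    have h1 : ω e = (-(b⁻¹ * a)) • e := by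
      have h2 : b • ω e = (-a) • e := by
        rw [neg_smul]; exact eq_neg_of_add_eq_zero_right hab
      calc ω e = (b⁻¹ * b) • ω e := by rw [inv_mul_cancel₀ hb, one_smul]
        _ = b⁻¹ • (b • ω e) := by rw [mul_smul]
        _ = (-(b⁻¹ * a)) • e := by rw [h2, smul_smul]; congr 1; ring
    set l := -(b⁻¹ * a) with hl
    have h3 := h0 e
    rw [h1, map_smul, h1] at h3
    have h4 : (l * l - t * l + d) • e = 0 := by
      have : (l * l - t * l + d) • e = l • l • e - (t • l • e - d • e) := by module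
      rw [this, h3, sub_self]
    exact hirr l ((smul_eq_zero.mp h4).resolve_right he)
  subst hb
  rw [zero_smul, add_zero] at hab
  exact ⟨(smul_eq_zero.mp hab).resolve_right he, rfl⟩

theorem exists_conj_two (hV : finrank F V = 2) {ω₀ ω₁ : V →ₗ[F] V} {t d : F}
    (hirr : ∀ s : F, s * s - t * s + d ≠ 0) (h0 : ∀ v, ω₀ (ω₀ v) = t • ω₀ v - d • v)
    (h1 : ∀ v, ω₁ (ω₁ v) = t • ω₁ v - d • v) : ∃ g : V ≃ₗ[F] V, ∀ v, g (ω₀ v) = ω₁ (g v) := by
  have hnt : Nontrivial V := Module.nontrivial_of_finrank_pos (R := F) (by rw [hV]; norm_num)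
  obtain ⟨e, he⟩ := exists_ne (0 : V)
  let B0 := basisOfLinearIndependentOfCardEqFinrank (CONJ2_li hirr h0 he) (by rw [hV]; simp)
  let B1 := basisOfLinearIndependentOfCardEqFinrank (CONJ2_li hirr h1 he) (by rw [hV]; simp)
  have hB0 : ∀ i, B0 i = ![e, ω₀ e] i := fun i => by
    simp only [B0, coe_basisOfLinearIndependentOfCardEqFinrank]
  have hB1 : ∀ i, B1 i = ![e, ω₁ e] i := fun i => by
    simp only [B1, coe_basisOfLinearIndependentOfCardEqFinrank]
  let g := B0.equiv B1 (Equiv.refl _)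
  have hg : ∀ i, g (B0 i) = B1 i := fun i => by simp [g]
  have ge : g e = e := by
    have := hg 0
    rw [hB0, hB1] at this
    simpa using this
  have gw : g (ω₀ e) = ω₁ e := by
    have := hg 1
    rw [hB0, hB1] at this
    simpa using this
  refine ⟨g, ?_⟩
  have hmaps : (g : V →ₗ[F] V) ∘ₗ ω₀ = ω₁ ∘ₗ (g : V →ₗ[F] V) := by
    apply B0.ext
    intro i
    rw [hB0]
    fin_cases i
    · simp [ge, gw]
    · simp [ge, gw, h0, h1]
  intro v
  exact LinearMap.congr_fun hmaps v

end Cfsg.Agent.Lib.Helper9.Inv
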