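import Mathlib

/-! # Inv farm (helper9), piece ETA (helper88) -/

set_option autoImplicit false

namespace Cfsg.Agent.Lib.Helper9.Inv

open Module

variable {F V : Type*} [Field F] [AddCommGroup V] [Module F V]

/-- [ETA] -/
theorem exists_eta_commute {κ : Type} [Fintype κ] (B' : Basis (κ ⊕ κ) F V) (ε : κ → F)
    {X : V →ₗ[F] V} (h1 : ∀ k, X (B' (Sum.inl k)) = ε k • B' (Sum.inl k))
    (h2 : ∀ k, X (B' (Sum.inr k)) = ε k • B' (Sum.inr k)) (D : F) :
    ∃ η₁ : V →ₗ[F] V, (∀ v, η₁ (η₁ v) = D • v) ∧ ∀ v, X (η₁ v) = η₁ (X v) := by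
  let η : V →ₗ[F] V :=
    B'.constr F (Sum.elim (fun k => B' (Sum.inr k)) (fun k => D • B' (Sum.inl k)))
  have el : ∀ k, η (B' (Sum.inl k)) = B' (Sum.inr k) := by
    intro k; exact (B'.constr_basis F _ (Sum.inl k))
  have er : ∀ k, η (B' (Sum.inr k)) = D • B' (Sum.inl k) := by
    intro k; exact (B'.constr_basis F _ (Sum.inr k))
  have c1 : η ∘ₗ η = D • LinearMap.id := by
    apply B'.ext
    rintro (k | k)
    · simp [el, er]
    · simp [el, er]
  have c2 : X ∘ₗ η = η ∘ₗ X := by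
    apply B'.ext
    rintro (k | k)
    · simp [el, h1, h2]
    · rw [LinearMap.comp_apply, LinearMap.comp_apply, er, h2, map_smul, map_smul, h1, er,
        smul_comm]
  exact ⟨η, fun v => LinearMap.congr_fun c1 v, fun v => LinearMap.congr_fun c2 v⟩

end Cfsg.Agent.Lib.Helper9.Inv
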