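import Mathlib

set_option autoImplicit false

namespace Cfsg.Agent.Lib.Helper9.Inv

open Module Matrix

variable {F : Type*} [Field F]

/-- the diagonal matrix `diag(-c, c, ..., c)` -/
def rd {n : ℕ} (i₀ : Fin n) (c : F) : Fin n → F := fun i => if i = i₀ then -c else c

theorem rd_det {n : ℕ} (i₀ : Fin n) {c : F} (hc : c ^ n = -1) :
    (Matrix.diagonal (rd i₀ c)).det = 1 := by
  rw [Matrix.det_diagonal]
  have : ∀ i, rd i₀ c i = c * (if i = i₀ then -1 else 1) := by
    intro i; unfold rd; split_ifs <;> simp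
  simp_rw [this]
  rw [Finset.prod_mul_distrib, Finset.prod_const, Finset.card_univ, Fintype.card_fin, hc,
    Finset.prod_ite_eq' Finset.univ i₀ (fun _ => (-1 : F))]
  simp

theorem rd_sq {n : ℕ} (i₀ : Fin n) (c : F) :
    Matrix.diagonal (rd i₀ c) * Matrix.diagonal (rd i₀ c)
      = (c * c) • (1 : Matrix (Fin n) (Fin n) F) := by
  rw [Matrix.diagonal_mul_diagonal, ← Matrix.diagonal_one, ← Matrix.diagonal_smul]
  congr 1
  funext i
  unfold rd
  split_ifs <;> simp

theorem rd_ne {n : ℕ} (hn : 2 ≤ n) (h2 : (2 : F) ≠ 0) (i₀ : Fin n) {c : F} (hc : c ≠ 0) (z : F) :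
    Matrix.diagonal (rd i₀ c) ≠ z • (1 : Matrix (Fin n) (Fin n) F) := by
  intro h
  obtain ⟨i₁, hi₁⟩ : ∃ i₁ : Fin n, i₁ ≠ i₀ := by
    haveI : Nontrivial (Fin n) := Fin.nontrivial_iff_two_le.2 hn
    exact exists_ne i₀
  have e0 := congrFun (congrFun h i₀) i₀
  have e1 := congrFun (congrFun h i₁) i₁
  simp [rd, hi₁] at e0 e1
  have : (2 : F) * c = 0 := by linear_combination e1 - e0
  rcases mul_eq_zero.1 this with h | h
  · exact h2 h
  · exact hc h

theorem rd_mulVec_single {n : ℕ} (i₀ : Fin n) (c : F) :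
    Matrix.diagonal (rd i₀ c) *ᵥ (Pi.single i₀ 1) = (-c) • (Pi.single i₀ 1 : Fin n → F) := by
  funext i
  rw [Matrix.mulVec_diagonal]
  by_cases hi : i = i₀
  · subst hi; simp [rd]
  · simp [hi]

theorem rd_mulVec_of_zero {n : ℕ} (i₀ : Fin n) (c : F) (w : Fin n → F) (hw : w i₀ = 0) :
    Matrix.diagonal (rd i₀ c) *ᵥ w = c • w := by
  funext i
  rw [Matrix.mulVec_diagonal]
  by_cases hi : i = i₀
  · subst hi; simp [hw]
  · simp [rd, hi]

theorem two_ne_zero_of_odd_card [Fintype F] (h : Odd (Fintype.card F)) : (2 : F) ≠ 0 := by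
  intro h2
  haveI : CharP F 2 := CharTwo.of_one_ne_zero_of_two_eq_zero one_ne_zero h2
  have := FiniteField.even_card_of_char_two (F := F) (ringChar.eq F 2)
  rw [Nat.odd_iff] at h
  omega

theorem odd_card_of_val_lt [Fintype F] {n : ℕ}
    (h : padicValNat 2 n < padicValNat 2 (Fintype.card F - 1)) : Odd (Fintype.card F) := by
  by_contra hq
  rw [Nat.not_odd_iff_even] at hq
  have h1 : 1 < Fintype.card F := Fintype.one_lt_card
  have : ¬ 2 ∣ Fintype.card F - 1 := by
    obtain ⟨k, hk⟩ := hq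
    omega
  rw [padicValNat.eq_zero_of_not_dvd this] at h
  omega

end Cfsg.Agent.Lib.Helper9.Inv
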