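import Mathlib
import Cfsg.Agent.Lib.Helper9.Inv.Asm1
import Cfsg.Agent.Lib.Helper9.Inv.Rd
import Cfsg.Agent.Lib.Helper9.Inv.KSTR
import Cfsg.Agent.Lib.Helper9.Inv.A1

set_option autoImplicit false

namespace Cfsg.Agent.Lib.Helper9.Inv

open Module Matrix

variable {F : Type*} [Field F]

/-- a pseudo-reflection `v ↦ c v + φ(v) u` does not normalise a quadratic field subalgebra in
dimension at least 3 -/
theorem not_normalizer_of_pseudoreflection {n : ℕ} (hn : 3 ≤ n)
    (K : Subalgebra F (Matrix (Fin n) (Fin n) F)) (hK : Cfsg.Geo.IsFieldSubalgebra 2 K)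
    (y : Matrix.GeneralLinearGroup (Fin n) F) (c : F) (hc : c ≠ 0) (u : Fin n → F) (hu : u ≠ 0)
    (φ : (Fin n → F) →ₗ[F] F) (hφ : φ ≠ 0)
    (hy : ∀ v, (y : Matrix (Fin n) (Fin n) F) *ᵥ v = c • v + φ v • u)
    (hyK : y ∈ Cfsg.Geo.subalgebraNormalizer K) : False := by
  classical
  obtain ⟨ω, t, d, hωK, hω2, hirr, -⟩ := exists_generator K hK
  have hyK' : ∀ k : Matrix (Fin n) (Fin n) F, k ∈ K ↔
      (y : Matrix (Fin n) (Fin n) F) * k * ((y⁻¹ : Matrix.GeneralLinearGroup (Fin n) F) :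
        Matrix (Fin n) (Fin n) F) ∈ K := hyK
  -- no eigenvector
  have hne : ∀ (v : Fin n → F) (a : F), v ≠ 0 → ω *ᵥ v ≠ a • v := by
    intro v a hv h
    have h1 : (ω * ω) *ᵥ v = (a * a) • v := by
      rw [← Matrix.mulVec_mulVec, h, Matrix.mulVec_smul, h, smul_smul]
    rw [hω2, Matrix.sub_mulVec, Matrix.smul_mulVec, Matrix.smul_mulVec, Matrix.one_mulVec, h,
      smul_smul] at h1
    have h3 : (a * a - t * a + d) • v = 0 := by
      rw [add_smul, sub_smul, ← h1]; abel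
    rcases smul_eq_zero.1 h3 with h4 | h4
    · exact hirr a h4
    · exact hv h4
  have hyi : (y : Matrix (Fin n) (Fin n) F) * ((y⁻¹ : Matrix.GeneralLinearGroup (Fin n) F) :
        Matrix (Fin n) (Fin n) F) = 1 := by
    rw [← Units.val_mul, mul_inv_cancel, Units.val_one]
  have hiy : ((y⁻¹ : Matrix.GeneralLinearGroup (Fin n) F) : Matrix (Fin n) (Fin n) F)
      * (y : Matrix (Fin n) (Fin n) F) = 1 := by
    rw [← Units.val_mul, inv_mul_cancel, Units.val_one]
  set yi : Matrix (Fin n) (Fin n) F := ((y⁻¹ : Matrix.GeneralLinearGroup (Fin n) F) :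
        Matrix (Fin n) (Fin n) F) with hyi_def
  set ym : Matrix (Fin n) (Fin n) F := (y : Matrix (Fin n) (Fin n) F) with hym_def
  set ω₂ : Matrix (Fin n) (Fin n) F := ω - ym * ω * yi with hω₂
  have hω₂K : ω₂ ∈ K := K.sub_mem hωK ((hyK' ω).1 hωK)
  by_cases h0 : ω₂ = 0
  · -- ω commutes with y
    have hcomm : ω * ym = ym * ω := by
      have h1 : ω = ym * ω * yi := sub_eq_zero.1 h0
      calc ω * ym = (ym * ω * yi) * ym := by rw [← h1]
        _ = ym * ω := by rw [Matrix.mul_assoc, hiy, Matrix.mul_one]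
    obtain ⟨v, hv⟩ : ∃ v, φ v ≠ 0 := by
      by_contra hcon
      push Not at hcon
      exact hφ (LinearMap.ext hcon)
    have h1 : ω *ᵥ (ym *ᵥ v) = ym *ᵥ (ω *ᵥ v) := by
      rw [Matrix.mulVec_mulVec, Matrix.mulVec_mulVec, hcomm]
    rw [hy, hy, Matrix.mulVec_add, Matrix.mulVec_smul, Matrix.mulVec_smul] at h1
    have h2 : φ v • (ω *ᵥ u) = φ (ω *ᵥ v) • u := add_left_cancel h1
    apply hne u ((φ v)⁻¹ * φ (ω *ᵥ v)) hu
    rw [mul_smul, ← h2, smul_smul, inv_mul_cancel₀ hv, one_smul]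
  · obtain ⟨k', -, hk'⟩ := hK.inv ω₂ hω₂K h0
    have hk'' : k' * ω₂ = 1 := mul_eq_one_comm.1 hk'
    -- a vector killed by φ and φ ∘ ω
    have hker : LinearMap.ker (φ.prod (φ ∘ₗ Matrix.toLin' ω)) ≠ ⊥ := by
      apply LinearMap.ker_ne_bot_of_finrank_lt
      simp
      omega
    obtain ⟨w, hw, hw0⟩ := (Submodule.ne_bot_iff _).1 hker
    rw [LinearMap.mem_ker] at hw
    have hw1 : φ w = 0 := congrArg Prod.fst hw
    have hw2 : φ (ω *ᵥ w) = 0 := by
      have := congrArg Prod.snd hw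
      rwa [← Matrix.toLin'_apply]
    have e1 : ym *ᵥ w = c • w := by rw [hy, hw1, zero_smul, add_zero]
    have e2 : ym *ᵥ (ω *ᵥ w) = c • (ω *ᵥ w) := by rw [hy, hw2, zero_smul, add_zero]
    have e3 : yi *ᵥ w = c⁻¹ • w := by
      have : yi *ᵥ (ym *ᵥ w) = w := by rw [Matrix.mulVec_mulVec, hiy, Matrix.one_mulVec]
      rw [e1, Matrix.mulVec_smul] at this
      rw [← this, smul_smul, inv_mul_cancel₀ hc, one_smul, this]
    have e4 : ω₂ *ᵥ w = 0 := by
      rw [hω₂, Matrix.sub_mulVec, ← Matrix.mulVec_mulVec, ← Matrix.mulVec_mulVec, e3,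
        Matrix.mulVec_smul, Matrix.mulVec_smul, e2, smul_smul, inv_mul_cancel₀ hc, one_smul, sub_self]
    apply hw0
    have : (k' * ω₂) *ᵥ w = 0 := by rw [← Matrix.mulVec_mulVec, e4, Matrix.mulVec_zero]
    rwa [hk'', Matrix.one_mulVec] at this

/-- transport to a conjugate -/
theorem field_fwd_core {n : ℕ} (hn : 3 ≤ n)
    (K : Subalgebra F (Matrix (Fin n) (Fin n) F)) (hK : Cfsg.Geo.IsFieldSubalgebra 2 K)
    (x P : Matrix.SpecialLinearGroup (Fin n) F) (c : F) (hc : c ≠ 0) (u₀ : Fin n → F) (hu₀ : u₀ ≠ 0)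
    (φ₀ : (Fin n → F) →ₗ[F] F) (hφ₀ : φ₀ ≠ 0)
    (hx : ∀ v, (x : Matrix (Fin n) (Fin n) F) *ᵥ v = c • v + φ₀ v • u₀)
    (hP : P⁻¹ * x * P ∈ ((Cfsg.Geo.subalgebraNormalizer K).comap
      (Matrix.SpecialLinearGroup.toGL :
        Matrix.SpecialLinearGroup (Fin n) F →* Matrix.GeneralLinearGroup (Fin n) F))) : False := by
  classical
  rw [Subgroup.mem_comap] at hP
  have h1 : ((P⁻¹ : Matrix.SpecialLinearGroup (Fin n) F) : Matrix (Fin n) (Fin n) F)
      * (P : Matrix (Fin n) (Fin n) F) = 1 := by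
    rw [← Matrix.SpecialLinearGroup.coe_mul, inv_mul_cancel, Matrix.SpecialLinearGroup.coe_one]
  have h1' : (P : Matrix (Fin n) (Fin n) F)
      * ((P⁻¹ : Matrix.SpecialLinearGroup (Fin n) F) : Matrix (Fin n) (Fin n) F) = 1 := by
    rw [← Matrix.SpecialLinearGroup.coe_mul, mul_inv_cancel, Matrix.SpecialLinearGroup.coe_one]
  refine not_normalizer_of_pseudoreflection hn K hK _ c hc
    (((P⁻¹ : Matrix.SpecialLinearGroup (Fin n) F) : Matrix (Fin n) (Fin n) F) *ᵥ u₀) ?_
    (φ₀ ∘ₗ Matrix.toLin' (P : Matrix (Fin n) (Fin n) F)) ?_ ?_ hP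
  · intro h0
    have := congrArg (fun v => (P : Matrix (Fin n) (Fin n) F) *ᵥ v) h0
    simp only [Matrix.mulVec_mulVec, h1', Matrix.one_mulVec, Matrix.mulVec_zero] at this
    exact hu₀ this
  · intro h0
    apply hφ₀
    ext1 v
    have := LinearMap.congr_fun h0
      (((P⁻¹ : Matrix.SpecialLinearGroup (Fin n) F) : Matrix (Fin n) (Fin n) F) *ᵥ (Pi.single v 1))
    rw [LinearMap.comp_apply, Matrix.toLin'_apply, Matrix.mulVec_mulVec, h1', Matrix.one_mulVec] at this
    ext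
    simpa using this
  · intro v
    rw [Matrix.SpecialLinearGroup.coe_GL_coe_matrix, Matrix.SpecialLinearGroup.coe_mul,
      Matrix.SpecialLinearGroup.coe_mul, ← Matrix.mulVec_mulVec, ← Matrix.mulVec_mulVec, hx,
      Matrix.mulVec_add, Matrix.mulVec_smul, Matrix.mulVec_smul, Matrix.mulVec_mulVec, h1,
      Matrix.one_mulVec, LinearMap.comp_apply, Matrix.toLin'_apply]

/-- S5969, direction (→) -/
theorem field_fwd [Fintype F] {n : ℕ} (hn : 2 ≤ n) (hev : 2 ∣ n)
    (K : Subalgebra F (Matrix (Fin n) (Fin n) F)) (hK : Cfsg.Geo.IsFieldSubalgebra 2 K)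
    (H : ∀ x : Matrix.SpecialLinearGroup (Fin n) F,
      (∃ z : F, ((x ^ 2 : Matrix.SpecialLinearGroup (Fin n) F) : Matrix (Fin n) (Fin n) F)
        = z • (1 : Matrix (Fin n) (Fin n) F)) →
      (∀ z : F, (x : Matrix (Fin n) (Fin n) F) ≠ z • (1 : Matrix (Fin n) (Fin n) F)) →
      ∃ P : Matrix.SpecialLinearGroup (Fin n) F, P⁻¹ * x * P ∈
        ((Cfsg.Geo.subalgebraNormalizer K).comap (Matrix.SpecialLinearGroup.toGL :
          Matrix.SpecialLinearGroup (Fin n) F →* Matrix.GeneralLinearGroup (Fin n) F))) :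
    n = 2 ∨ (Odd (Fintype.card F) ∧ padicValNat 2 (Fintype.card F - 1) ≤ padicValNat 2 n) := by
  classical
  by_contra hcon
  push Not at hcon
  obtain ⟨hn2, hcon⟩ := hcon
  have hn4 : 4 ≤ n := by
    obtain ⟨k, rfl⟩ := hev
    omega
  set i₀ : Fin n := ⟨0, by omega⟩ with hi₀
  set i₁ : Fin n := ⟨1, by omega⟩ with hi₁
  have h01 : i₀ ≠ i₁ := by
    intro h
    have := congrArg Fin.val h
    simp [hi₀, hi₁] at this
  by_cases hodd : Odd (Fintype.card F)
  · have hlt := hcon hodd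
    have h2 := two_ne_zero_of_odd_card hodd
    obtain ⟨c, hc⟩ := exists_pow_eq_neg_one hodd n (by omega) hlt
    have hc0 : c ≠ 0 := by
      rintro rfl
      rw [zero_pow (by omega)] at hc
      exact neg_ne_zero.2 one_ne_zero hc.symm
    set x : Matrix.SpecialLinearGroup (Fin n) F := ⟨Matrix.diagonal (rd i₀ c), rd_det i₀ hc⟩ with hx
    obtain ⟨P, hP⟩ := H x
      ⟨c * c, by rw [pow_two, Matrix.SpecialLinearGroup.coe_mul]; exact rd_sq i₀ c⟩
      (fun z => rd_ne (by omega) h2 i₀ hc0 z)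
    refine field_fwd_core (by omega) K hK x P c hc0 (Pi.single i₀ 1) ?_
      ((-(2 * c)) • LinearMap.proj (R := F) (φ := fun _ : Fin n => F) i₀) ?_ ?_ hP
    · intro h0
      have := congrFun h0 i₀
      simp at this
    · intro h0
      have := LinearMap.congr_fun h0 (Pi.single i₀ 1)
      simp [h2, hc0] at this
    · intro v
      show Matrix.diagonal (rd i₀ c) *ᵥ v = _
      funext i
      rw [Matrix.mulVec_diagonal]
      by_cases hi : i = i₀
      · subst hi
        simp [rd]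
        ring
      · simp [rd, hi]
  · have h2 : (2 : F) = 0 := by
      by_contra h2
      exact hodd (odd_card_of_two_ne h2)
    set x : Matrix.SpecialLinearGroup (Fin n) F :=
      ⟨Matrix.transvection i₀ i₁ 1, Matrix.det_transvection_of_ne i₀ i₁ h01 1⟩ with hx
    obtain ⟨P, hP⟩ := H x
      ⟨1, by
        rw [pow_two, Matrix.SpecialLinearGroup.coe_mul]
        show Matrix.transvection i₀ i₁ 1 * Matrix.transvection i₀ i₁ 1 = _
        rw [Matrix.transvection_mul_transvection_same i₀ i₁ h01, one_add_one_eq_two, h2,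
          Matrix.transvection_zero, one_smul]⟩
      (fun z hz => by
        have := congrFun (congrFun hz i₀) i₁
        simp [hx, Matrix.transvection, h01] at this)
    refine field_fwd_core (by omega) K hK x P 1 one_ne_zero (Pi.single i₀ 1) ?_
      (LinearMap.proj (R := F) (φ := fun _ : Fin n => F) i₁) ?_ ?_ hP
    · intro h0
      have := congrFun h0 i₀
      simp at this
    · intro h0
      have := LinearMap.congr_fun h0 (Pi.single i₁ 1)
      simp at this
    · intro v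
      show Matrix.transvection i₀ i₁ 1 *ᵥ v = _
      rw [Matrix.transvection, Matrix.add_mulVec, Matrix.one_mulVec, Matrix.single_mulVec_eq,
        one_smul, one_mul]
      rfl

end Cfsg.Agent.Lib.Helper9.Inv
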