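import Mathlib
import Cfsg.Agent.Lib.Helper9.Inv.SQ2

set_option autoImplicit false

namespace Cfsg.Agent.Lib.Helper9.Inv

variable {F : Type*} [Field F]

open Polynomial in
theorem exists_conic_point [Fintype F] (t d : F) : ∃ p r : F, p * p - t * p + r * r + d = 0 := by
  by_cases h2 : (2 : F) = 0
  · obtain ⟨c, hc⟩ := exists_sqrt_char_two h2 d
    refine ⟨0, c, ?_⟩
    rw [hc]
    have : (0 : F) * 0 - t * 0 + d + d = 2 * d := by ring
    rw [this, h2]; ring
  · have hodd : Fintype.card F % 2 = 1 := by
      apply FiniteField.odd_card_of_char_ne_two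
      intro h
      haveI : CharP F 2 := by rw [← h]; exact ringChar.charP F
      exact h2 (by exact_mod_cast CharP.cast_eq_zero F 2)
    have hf : (C 1 * X ^ 2 + C (-t) * X + C d : F[X]).degree = 2 :=
      degree_quadratic one_ne_zero
    have hg : (X ^ 2 : F[X]).degree = 2 := degree_X_pow 2
    obtain ⟨a, b, hab⟩ := FiniteField.exists_root_sum_quadratic hf hg hodd
    refine ⟨a, b, ?_⟩
    simp only [eval_add, eval_mul, eval_pow, eval_X, eval_C] at hab
    linear_combination hab

end Cfsg.Agent.Lib.Helper9.Inv
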