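import Mathlib
import Cfsg.Agent.Lib.Helper9.Inv.N2

set_option autoImplicit false

namespace Cfsg.Agent.Lib.Helper9.Inv

open Module

variable {F V : Type*} [Field F] [AddCommGroup V] [Module F V]

theorem TWO_exists_indep (hV : finrank F V = 2) {X : V →ₗ[F] V}
    (hns : ∀ c : F, ∃ v, X v ≠ c • v) : ∃ v, LinearIndependent F ![v, X v] := by
  classical
  by_contra hcon
  push Not at hcon
  have key : ∀ v : V, v ≠ 0 → ∃ a : F, a • v = X v := by
    intro v hv
    have := hcon v
    rw [LinearIndependent.pair_iff' hv] at this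
    push Not at this
    exact this
  have : Module.Finite F V := Module.finite_of_finrank_pos (by omega)
  let b := finBasisOfFinrankEq F V hV
  have hli : LinearIndependent F ![b 0, b 1] := by
    have := b.linearIndependent
    convert this using 1
    ext i
    fin_cases i <;> rfl
  rw [LinearIndependent.pair_iff] at hli
  have h0 : b 0 ≠ 0 := b.ne_zero 0
  have h1 : b 1 ≠ 0 := b.ne_zero 1
  have h01 : b 0 + b 1 ≠ 0 := by
    intro h
    have := hli 1 1 (by simpa using h)
    exact one_ne_zero this.1
  obtain ⟨a0, ha0⟩ := key _ h0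
  obtain ⟨a1, ha1⟩ := key _ h1
  obtain ⟨a2, ha2⟩ := key _ h01
  have hh : (a0 - a2) • b 0 + (a1 - a2) • b 1 = 0 := by
    rw [map_add, ← ha0, ← ha1] at ha2
    have : (a0 - a2) • b 0 + (a1 - a2) • b 1 = (a0 • b 0 + a1 • b 1) - a2 • (b 0 + b 1) := by module
    rw [this, ha2, sub_self]
  obtain ⟨e0, e1⟩ := hli _ _ hh
  have ea : a0 = a2 := sub_eq_zero.1 e0
  have eb : a1 = a2 := sub_eq_zero.1 e1
  obtain ⟨v, hv⟩ := hns a2
  apply hv
  have : X = a2 • LinearMap.id := by
    apply b.ext
    intro i
    fin_cases i
    · simp only [Fin.zero_eta, LinearMap.smul_apply, LinearMap.id_apply]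
      rw [← ha0, ea]
    · simp only [Fin.mk_one, LinearMap.smul_apply, LinearMap.id_apply]
      rw [← ha1, eb]
  rw [this]; rfl

theorem exists_omega_two [Fintype F] (hV : finrank F V = 2) {X : V →ₗ[F] V} {z : F}
    (hXX : ∀ v, X (X v) = z • v) (hns : ∀ c : F, ∃ v, X v ≠ c • v) (hdet : LinearMap.det X = 1)
    (t d : F) :
    ∃ ω₁ : V →ₗ[F] V, (∀ v, ω₁ (ω₁ v) = t • ω₁ v - d • v) ∧
      (∀ v, X (ω₁ v) = t • X v - ω₁ (X v)) := by
  classical
  obtain ⟨v, hli⟩ := TWO_exists_indep hV hns
  let B : Basis (Fin 2) F V := basisOfLinearIndependentOfCardEqFinrank hli (by simp [hV])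
  have hB : ⇑B = ![v, X v] := coe_basisOfLinearIndependentOfCardEqFinrank hli _
  have hB0 : B 0 = v := by rw [hB]; rfl
  have hB1 : B 1 = X v := by rw [hB]; rfl
  have hz : z = -1 := by
    have hM : LinearMap.toMatrix B B X = !![0, z; 1, 0] := by
      ext i j
      rw [LinearMap.toMatrix_apply]
      fin_cases j
      · have : X (B 0) = B 1 := by rw [hB0, hB1]
        simp only [Fin.zero_eta]
        rw [this, B.repr_self]
        fin_cases i <;> simp
      · have : X (B 1) = z • B 0 := by rw [hB0, hB1, hXX]
        simp only [Fin.mk_one]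
        rw [this, map_smul, B.repr_self]
        fin_cases i <;> simp
    have := LinearMap.det_toMatrix B X
    rw [hM, Matrix.det_fin_two_of, hdet] at this
    linear_combination -this
  obtain ⟨p, r, hpr⟩ := exists_conic_point t d
  set w := X v with hw
  have hXw : X w = -v := by rw [hw, hXX, hz, neg_one_smul]
  let ω₁ : V →ₗ[F] V := B.constr F ![p • v + r • w, r • v + (t - p) • w]
  have hω0 : ω₁ v = p • v + r • w := by
    have := B.constr_basis F ![p • v + r • w, r • v + (t - p) • w] 0
    rw [hB0] at this
    exact this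
  have hω1 : ω₁ w = r • v + (t - p) • w := by
    have := B.constr_basis F ![p • v + r • w, r • v + (t - p) • w] 1
    rw [hB1] at this
    exact this
  have e1 : ω₁ ∘ₗ ω₁ = t • ω₁ - d • LinearMap.id := by
    apply B.ext
    intro i
    fin_cases i
    · simp only [Fin.zero_eta, hB0, LinearMap.comp_apply, LinearMap.sub_apply,
        LinearMap.smul_apply, LinearMap.id_apply, hω0, map_add, map_smul, hω1]
      have : (p * p + r * r) = t * p - d := by linear_combination hpr
      calc p • (p • v + r • w) + r • (r • v + (t - p) • w)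
          = (p * p + r * r) • v + (t * r) • w := by module
        _ = t • (p • v + r • w) - d • v := by rw [this]; module
    · simp only [Fin.mk_one, hB1, LinearMap.comp_apply, LinearMap.sub_apply,
        LinearMap.smul_apply, LinearMap.id_apply, hω0, map_add, map_smul, hω1]
      have : (r * r + (t - p) * (t - p)) = t * (t - p) - d := by linear_combination hpr
      calc r • (p • v + r • w) + (t - p) • (r • v + (t - p) • w)
          = (t * r) • v + (r * r + (t - p) * (t - p)) • w := by module
        _ = t • (r • v + (t - p) • w) - d • w := by rw [this]; module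
  have e2 : X ∘ₗ ω₁ = t • X - ω₁ ∘ₗ X := by
    apply B.ext
    intro i
    fin_cases i
    · simp only [Fin.zero_eta, hB0, LinearMap.comp_apply, LinearMap.sub_apply,
        LinearMap.smul_apply, hω0, map_add, map_smul, ← hw, hω1, hXw]
      module
    · simp only [Fin.mk_one, hB1, LinearMap.comp_apply, LinearMap.sub_apply,
        LinearMap.smul_apply, hω0, map_add, map_smul, ← hw, hω1, hXw, map_neg]
      module
  refine ⟨ω₁, fun u => ?_, fun u => ?_⟩
  · exact LinearMap.congr_fun e1 u
  · exact LinearMap.congr_fun e2 u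

end Cfsg.Agent.Lib.Helper9.Inv
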