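import Mathlib
import Cfsg.Agent.Lib.Helper9.Inv.Fld1
import Cfsg.Agent.Lib.Helper9.Inv.NORM
import Cfsg.Agent.Lib.Helper9.Inv.TWO
import Cfsg.Agent.Lib.Helper9.Inv.CONJ2
import Cfsg.Agent.Lib.Helper9.Inv.CONJ
import Cfsg.Agent.Lib.Helper9.Inv.ETA
import Cfsg.Agent.Lib.Helper9.Inv.SQ

set_option autoImplicit false

namespace Cfsg.Agent.Lib.Helper9.Inv

open Module Matrix

variable {F : Type*} [Field F]

/-- transfer: a model `ω₁` of `ω` that is normalised by `X` gives a conjugate of `x` in `N(K)` -/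
theorem field_transfer [Fintype F] {n : ℕ} (hn : 0 < n)
    (K : Subalgebra F (Matrix (Fin n) (Fin n) F)) (ω : Matrix (Fin n) (Fin n) F)
    (hKω : ∀ k : Matrix (Fin n) (Fin n) F, k ∈ K ↔ ∃ a b : F, k = a • (1 : Matrix (Fin n) (Fin n) F) + b • ω)
    (x : Matrix.SpecialLinearGroup (Fin n) F) {z : F} (hz : z ≠ 0)
    (hXX : ∀ v, Matrix.toLin' (x : Matrix (Fin n) (Fin n) F)
      (Matrix.toLin' (x : Matrix (Fin n) (Fin n) F) v) = z • v)
    (g : (Fin n → F) ≃ₗ[F] (Fin n → F)) (ω₁ : (Fin n → F) →ₗ[F] (Fin n → F))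
    (hg : ∀ v, g (Matrix.toLin' ω v) = ω₁ (g v)) (a b : F) (hb : b ≠ 0)
    (hX : ∀ v, Matrix.toLin' (x : Matrix (Fin n) (Fin n) F) (ω₁ v)
      = a • Matrix.toLin' (x : Matrix (Fin n) (Fin n) F) v
        + b • ω₁ (Matrix.toLin' (x : Matrix (Fin n) (Fin n) F) v)) :
    ∃ P : Matrix.SpecialLinearGroup (Fin n) F, P⁻¹ * x * P ∈
      ((Cfsg.Geo.subalgebraNormalizer K).comap (Matrix.SpecialLinearGroup.toGL :
        Matrix.SpecialLinearGroup (Fin n) F →* Matrix.GeneralLinearGroup (Fin n) F)) := by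
  classical
  obtain ⟨P, hP⟩ := exists_SL_conj hn x hz hXX g
  refine ⟨P, ?_⟩
  rw [Subgroup.mem_comap]
  refine mem_normalizer_of_conj K ω hKω _ a b hb ?_
  rw [Matrix.SpecialLinearGroup.coe_GL_coe_matrix]
  apply Matrix.toLin'.injective
  apply LinearMap.ext
  intro v
  have hgs : ∀ w, g.symm (ω₁ w) = Matrix.toLin' ω (g.symm w) := by
    intro w
    apply g.injective
    rw [LinearEquiv.apply_symm_apply, hg, LinearEquiv.apply_symm_apply]
  rw [Matrix.toLin'_apply, Matrix.toLin'_apply, ← Matrix.mulVec_mulVec, ← Matrix.mulVec_mulVec, hP, hP,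
    Matrix.add_mulVec, Matrix.smul_mulVec, Matrix.smul_mulVec, Matrix.one_mulVec,
    ← Matrix.toLin'_apply ω, ← Matrix.toLin'_apply ω, hg, hX, map_add, map_smul, map_smul, hgs]

theorem toLin_sq {n : ℕ} {ω : Matrix (Fin n) (Fin n) F} {t d : F}
    (hω2 : ω * ω = t • ω - d • (1 : Matrix (Fin n) (Fin n) F)) (v : Fin n → F) :
    Matrix.toLin' ω (Matrix.toLin' ω v) = t • Matrix.toLin' ω v - d • v := by
  rw [Matrix.toLin'_apply, Matrix.toLin'_apply, Matrix.mulVec_mulVec, hω2, Matrix.sub_mulVec,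
    Matrix.smul_mulVec, Matrix.smul_mulVec, Matrix.one_mulVec]

/-- the case where a square root `η₁` of `D` commuting with `X` is available -/
theorem field_bwd_of_eta [Fintype F] {n : ℕ} (hn : 0 < n) (h2 : (2 : F) ≠ 0)
    (K : Subalgebra F (Matrix (Fin n) (Fin n) F)) (ω : Matrix (Fin n) (Fin n) F) {t d : F}
    (hω2 : ω * ω = t • ω - d • (1 : Matrix (Fin n) (Fin n) F))
    (hirr : ∀ s : F, s * s - t * s + d ≠ 0)
    (hKω : ∀ k : Matrix (Fin n) (Fin n) F, k ∈ K ↔ ∃ a b : F, k = a • (1 : Matrix (Fin n) (Fin n) F) + b • ω)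
    (x : Matrix.SpecialLinearGroup (Fin n) F) {z : F} (hz : z ≠ 0)
    (hXX : ∀ v, Matrix.toLin' (x : Matrix (Fin n) (Fin n) F)
      (Matrix.toLin' (x : Matrix (Fin n) (Fin n) F) v) = z • v)
    (η₁ : (Fin n → F) →ₗ[F] (Fin n → F))
    (h1 : ∀ v, η₁ (η₁ v) = (t * t / 4 - d) • v)
    (hc : ∀ v, Matrix.toLin' (x : Matrix (Fin n) (Fin n) F) (η₁ v)
      = η₁ (Matrix.toLin' (x : Matrix (Fin n) (Fin n) F) v)) :
    ∃ P : Matrix.SpecialLinearGroup (Fin n) F, P⁻¹ * x * P ∈
      ((Cfsg.Geo.subalgebraNormalizer K).comap (Matrix.SpecialLinearGroup.toGL :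
        Matrix.SpecialLinearGroup (Fin n) F →* Matrix.GeneralLinearGroup (Fin n) F)) := by
  classical
  have h4 : (4 : F) ≠ 0 := by
    have : (4 : F) = 2 * 2 := by norm_num
    rw [this]; exact mul_ne_zero h2 h2
  have hD : ∀ s : F, s * s ≠ t * t / 4 - d := by
    intro s hs
    apply hirr (s + t / 2)
    field_simp
    field_simp at hs
    linear_combination hs
  set η₀ : (Fin n → F) →ₗ[F] (Fin n → F) := Matrix.toLin' ω - (t / 2) • LinearMap.id with hη₀
  have h0 : ∀ v, η₀ (η₀ v) = (t * t / 4 - d) • v := by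
    intro v
    simp only [hη₀, LinearMap.sub_apply, LinearMap.smul_apply, LinearMap.id_apply, map_sub, map_smul,
      toLin_sq hω2]
    have e : t * t / 4 = (t / 2) * (t / 2) := by field_simp; norm_num
    have e' : t = t / 2 + t / 2 := by rw [← add_div, ← two_mul, mul_div_cancel_left₀ _ h2]
    rw [e, sub_smul, mul_smul]
    nth_rewrite 1 [e']
    rw [add_smul, smul_sub]
    abel
  obtain ⟨g, hg⟩ := exists_conj_of_sq hD h0 h1
  refine field_transfer hn K ω hKω x hz hXX g (η₁ + (t / 2) • LinearMap.id) ?_ 0 1 one_ne_zero ?_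
  · intro v
    have := hg v
    simp only [hη₀, LinearMap.sub_apply, LinearMap.smul_apply, LinearMap.id_apply, map_sub,
      map_smul] at this
    simp only [LinearMap.add_apply, LinearMap.smul_apply, LinearMap.id_apply]
    rw [← this]; abel
  · intro v
    simp only [LinearMap.add_apply, LinearMap.smul_apply, LinearMap.id_apply, map_add, map_smul, hc]
    simp

/-- S5969, direction (←) -/
theorem field_bwd [Fintype F] {n : ℕ} (hn : 2 ≤ n) (hev : 2 ∣ n)
    (K : Subalgebra F (Matrix (Fin n) (Fin n) F)) (hK : Cfsg.Geo.IsFieldSubalgebra 2 K)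
    (h : n = 2 ∨ (Odd (Fintype.card F) ∧ padicValNat 2 (Fintype.card F - 1) ≤ padicValNat 2 n))
    (x : Matrix.SpecialLinearGroup (Fin n) F) (z : F)
    (hz : ((x ^ 2 : Matrix.SpecialLinearGroup (Fin n) F) : Matrix (Fin n) (Fin n) F)
      = z • (1 : Matrix (Fin n) (Fin n) F))
    (hns : ∀ z : F, (x : Matrix (Fin n) (Fin n) F) ≠ z • (1 : Matrix (Fin n) (Fin n) F)) :
    ∃ P : Matrix.SpecialLinearGroup (Fin n) F, P⁻¹ * x * P ∈
      ((Cfsg.Geo.subalgebraNormalizer K).comap (Matrix.SpecialLinearGroup.toGL :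
        Matrix.SpecialLinearGroup (Fin n) F →* Matrix.GeneralLinearGroup (Fin n) F)) := by
  classical
  obtain ⟨hz0, hXX⟩ := sq_facts (by omega) x hz
  have hfr : finrank F (Fin n → F) = n := by simp
  have hdet : LinearMap.det (Matrix.toLin' (x : Matrix (Fin n) (Fin n) F)) = 1 := by
    rw [LinearMap.det_toLin']; exact x.det_coe
  obtain ⟨ω, t, d, hωK, hω2, hirr, hKω⟩ := exists_generator K hK
  rcases h with h | ⟨hodd, hval⟩
  · have hV : finrank F (Fin n → F) = 2 := by rw [hfr, h]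
    have hns' : ∀ c : F, ∃ v, Matrix.toLin' (x : Matrix (Fin n) (Fin n) F) v ≠ c • v := by
      intro c
      by_contra hcon
      push Not at hcon
      apply hns c
      apply Matrix.toLin'.injective
      apply LinearMap.ext
      intro v
      rw [hcon, Matrix.toLin'_apply, Matrix.smul_mulVec, Matrix.one_mulVec]
    obtain ⟨ω₁, hω₁, hXω⟩ := exists_omega_two hV hXX hns' hdet t d
    obtain ⟨g, hg⟩ := exists_conj_two hV hirr (toLin_sq hω2) hω₁
    refine field_transfer (by omega) K ω hKω x hz0 hXX g ω₁ hg t (-1) (by simp) ?_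
    intro v
    rw [hXω, neg_smul, one_smul, sub_eq_add_neg]
  · have h2 := two_ne_zero_of_odd_card hodd
    have h4 : (4 : F) ≠ 0 := by
      have : (4 : F) = 2 * 2 := by norm_num
      rw [this]; exact mul_ne_zero h2 h2
    by_cases hs : ∃ c : F, c * c = z
    · obtain ⟨c, rfl⟩ := hs
      have hc : c ≠ 0 := by rintro rfl; simp at hz0
      obtain ⟨κ, _, B', ε, e1, e2, e3⟩ := exists_scalar_planes_of_sq h2 hc hXX hdet
        (by rw [hfr]; exact (even_iff_two_dvd.2 hev)) (by rw [hfr]; omega) (by rw [hfr]; exact hval)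
      obtain ⟨η₁, a1, a2⟩ := exists_eta_commute B' ε e2 e3 (t * t / 4 - d)
      exact field_bwd_of_eta (by omega) h2 K ω hω2 hirr hKω x hz0 hXX η₁ a1 a2
    · push Not at hs
      have hD : ∀ s : F, s * s ≠ t * t / 4 - d := by
        intro s hs
        apply hirr (s + t / 2)
        field_simp
        field_simp at hs
        linear_combination hs
      obtain ⟨β, hβ⟩ := exists_sq_mul_eq h2 hs hD
      refine field_bwd_of_eta (by omega) h2 K ω hω2 hirr hKω x hz0 hXX
        (β • Matrix.toLin' (x : Matrix (Fin n) (Fin n) F)) ?_ ?_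
      · intro v
        simp only [LinearMap.smul_apply, map_smul, hXX, smul_smul]
        rw [← hβ]; congr 1; ring
      · intro v
        simp only [LinearMap.smul_apply, map_smul]

end Cfsg.Agent.Lib.Helper9.Inv
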