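import Mathlib
import Cfsg.Agent.Lib.Helper9.Inv.Defs
import Cfsg.Agent.S0752

/-! # Inv farm (helper9), piece T1 (helper3) -/

set_option autoImplicit false

namespace Cfsg.Agent.Lib.Helper9.Inv

open Module

variable {F V : Type*} [Field F] [AddCommGroup V] [Module F V]

theorem exists_conj_similitude [FiniteDimensional F V] (B₀ : LinearMap.BilinForm F V)
    (hA : B₀.IsAlt) (hN : B₀.Nondegenerate) {X : V →ₗ[F] V} {μ : F} (h : HasPlaneSys X μ) :
    ∃ g : V ≃ₗ[F] V, ∀ u v, B₀ (g.symm (X (g u))) (g.symm (X (g v))) = μ * B₀ u v := by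
  classical
  obtain ⟨κ, _, B, α, β, γ, δ, hl, hr, hdet⟩ := h
  obtain ⟨m, k, E, h1, h2, h3, h4⟩ := Cfsg.Agent.S0752.result B₀ hA
  have hk : k = 0 := by
    by_contra hk
    have hpos : 0 < k := Nat.pos_of_ne_zero hk
    have h5 := h4 ⟨0, hpos⟩
    exact E.ne_zero _ (hN.1 _ h5)
  subst hk
  have hcard : Fintype.card κ = m := by
    have e1 := Module.finrank_eq_card_basis B
    have e2 := Module.finrank_eq_card_basis E
    rw [e1] at e2
    simp only [Fintype.card_sum, Fintype.card_fin] at e2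
    omega
  let σ : κ ≃ Fin m := Fintype.equivFinOfCardEq hcard
  let τ : κ ⊕ κ ≃ (Fin m ⊕ Fin m) ⊕ Fin 0 :=
    (Equiv.sumCongr σ σ).trans (Equiv.sumEmpty _ _).symm
  let E' : Basis (κ ⊕ κ) F V := E.reindex τ.symm
  have hEl : ∀ a, E' (Sum.inl a) = E (Sum.inl (Sum.inl (σ a))) := by
    intro a; simp [E', τ]
  have hEr : ∀ a, E' (Sum.inr a) = E (Sum.inl (Sum.inr (σ a))) := by
    intro a; simp [E', τ]
  have v1 : ∀ a b, B₀ (E' (Sum.inl a)) (E' (Sum.inr b)) = if a = b then 1 else 0 := by
    intro a b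
    rw [hEl, hEr, h1]
    simp only [σ.injective.eq_iff]
  have v2 : ∀ a b, B₀ (E' (Sum.inl a)) (E' (Sum.inl b)) = 0 := by
    intro a b
    rw [hEl, hEl, h2]
  have v3 : ∀ a b, B₀ (E' (Sum.inr a)) (E' (Sum.inr b)) = 0 := by
    intro a b
    rw [hEr, hEr, h3]
  have v4 : ∀ a b, B₀ (E' (Sum.inr a)) (E' (Sum.inl b)) = -(if b = a then 1 else 0) := by
    intro a b
    rw [← hA.neg_eq, v1]
  let g : V ≃ₗ[F] V := E'.equiv B (Equiv.refl _)
  have hg : ∀ i, g (E' i) = B i := by
    intro i
    simp [g]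
  have hgs : ∀ i, g.symm (B i) = E' i := by
    intro i
    rw [← hg, LinearEquiv.symm_apply_apply]
  let y : V →ₗ[F] V := (g.symm : V →ₗ[F] V) ∘ₗ X ∘ₗ (g : V →ₗ[F] V)
  have hyl : ∀ a, y (E' (Sum.inl a)) = α a • E' (Sum.inl a) + γ a • E' (Sum.inr a) := by
    intro a
    simp only [y, LinearMap.comp_apply, LinearEquiv.coe_coe]
    rw [hg, hl, map_add, map_smul, map_smul, hgs, hgs]
  have hyr : ∀ a, y (E' (Sum.inr a)) = β a • E' (Sum.inl a) + δ a • E' (Sum.inr a) := by
    intro a
    simp only [y, LinearMap.comp_apply, LinearEquiv.coe_coe]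
    rw [hg, hr, map_add, map_smul, map_smul, hgs, hgs]
  have key : B₀.compl₁₂ y y = μ • B₀ := by
    apply LinearMap.ext_basis E' E'
    intro i j
    rw [LinearMap.compl₁₂_apply, LinearMap.smul_apply, LinearMap.smul_apply, smul_eq_mul]
    rcases i with a | a <;> rcases j with b | b
    · rw [hyl, hyl]
      simp only [map_add, map_smul, LinearMap.add_apply, LinearMap.smul_apply, smul_eq_mul,
        v1, v2, v3, v4]
      by_cases hab : a = b
      · subst hab; simp; ring
      · simp [hab, Ne.symm hab]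
    · rw [hyl, hyr]
      simp only [map_add, map_smul, LinearMap.add_apply, LinearMap.smul_apply, smul_eq_mul,
        v1, v2, v3, v4]
      by_cases hab : a = b
      · subst hab; simp; linear_combination hdet a
      · simp [hab, Ne.symm hab]
    · rw [hyr, hyl]
      simp only [map_add, map_smul, LinearMap.add_apply, LinearMap.smul_apply, smul_eq_mul,
        v1, v2, v3, v4]
      by_cases hab : a = b
      · subst hab; simp; linear_combination -hdet a
      · simp [hab, Ne.symm hab]
    · rw [hyr, hyr]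
      simp only [map_add, map_smul, LinearMap.add_apply, LinearMap.smul_apply, smul_eq_mul,
        v1, v2, v3, v4]
      by_cases hab : a = b
      · subst hab; simp; ring
      · simp [hab, Ne.symm hab]
  refine ⟨g, fun u v => ?_⟩
  have := LinearMap.congr_fun (LinearMap.congr_fun key u) v
  rw [LinearMap.compl₁₂_apply, LinearMap.smul_apply, LinearMap.smul_apply, smul_eq_mul] at this
  exact this

end Cfsg.Agent.Lib.Helper9.Inv
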