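import Mathlib
import Cfsg.Agent.Lib.Helper9.Inv.Asm1
import Cfsg.Agent.Lib.Helper9.Inv.Rd
import Cfsg.Agent.Lib.Helper9.Inv.T1
import Cfsg.Agent.Lib.Helper9.Inv.C1
import Cfsg.Agent.Lib.Helper9.Inv.A1
import Cfsg.Agent.Lib.Helper94.FormB

set_option autoImplicit false

namespace Cfsg.Agent.Lib.Helper9.Inv

open Module Matrix
open Cfsg.Agent.Lib.Helper94 (formB formB_apply formB_nondegenerate)

variable {F : Type*} [Field F]

/-- S5967, direction (←) -/
theorem sp_bwd [Fintype F] {n : ℕ} (hn : 4 ≤ n) (he : Even n)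
    (f : (Fin n → F) → (Fin n → F) → F) (hf : Cfsg.Geo.IsSymplecticForm f)
    (h : padicValNat 2 (Fintype.card F - 1) ≤ padicValNat 2 n)
    (x : Matrix.SpecialLinearGroup (Fin n) F) (z : F)
    (hz : ((x ^ 2 : Matrix.SpecialLinearGroup (Fin n) F) : Matrix (Fin n) (Fin n) F)
      = z • (1 : Matrix (Fin n) (Fin n) F)) :
    ∃ P : Matrix.SpecialLinearGroup (Fin n) F, P⁻¹ * x * P ∈
      ((Cfsg.Geo.similarityGroup f).comap (Matrix.SpecialLinearGroup.toGL :
        Matrix.SpecialLinearGroup (Fin n) F →* Matrix.GeneralLinearGroup (Fin n) F)) := by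
  classical
  obtain ⟨hz0, hXX⟩ := sq_facts (by omega) x hz
  have hfr : finrank F (Fin n → F) = n := by simp
  have hdet : LinearMap.det (Matrix.toLin' (x : Matrix (Fin n) (Fin n) F)) = 1 := by
    rw [LinearMap.det_toLin']; exact x.det_coe
  obtain ⟨μ, hμ, hPS⟩ := exists_planeSys hz0 hXX hdet (by rw [hfr]; exact he)
    (by rw [hfr]; omega) (by rw [hfr]; exact h)
  obtain ⟨g, hg⟩ := exists_conj_similitude (formB f hf.bilinear) (fun v => hf.alternating v)
    (formB_nondegenerate f hf.bilinear hf.nondegenerate) hPS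
  obtain ⟨P, hP⟩ := exists_SL_conj (by omega) x hz0 hXX g
  refine ⟨P, ?_⟩
  rw [Subgroup.mem_comap]
  refine ⟨Units.mk0 μ hμ, fun u v => ?_⟩
  rw [Matrix.SpecialLinearGroup.coe_GL_coe_matrix, hP, hP]
  exact hg u v

/-- no conjugate of `diag(-c, c, ..., c)` is a symplectic similitude -/
theorem sp_fwd_core (h2 : (2 : F) ≠ 0) {n : ℕ} (hn : 4 ≤ n)
    (f : (Fin n → F) → (Fin n → F) → F) (hf : Cfsg.Geo.IsSymplecticForm f) {c : F} (hc : c ≠ 0)
    (i₀ : Fin n) (Pi' Pm : Matrix (Fin n) (Fin n) F) (h1 : Pi' * Pm = 1) (h1' : Pm * Pi' = 1) (μ : F)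
    (hsim : ∀ u v, f ((Pi' * Matrix.diagonal (rd i₀ c) * Pm) *ᵥ u)
      ((Pi' * Matrix.diagonal (rd i₀ c) * Pm) *ᵥ v) = μ * f u v) : False := by
  classical
  have key : ∀ w, (Pi' * Matrix.diagonal (rd i₀ c) * Pm) *ᵥ (Pi' *ᵥ w)
      = Pi' *ᵥ (Matrix.diagonal (rd i₀ c) *ᵥ w) := by
    intro w
    rw [Matrix.mulVec_mulVec, Matrix.mul_assoc, h1', Matrix.mul_one, ← Matrix.mulVec_mulVec]
  refine not_similitude_of_reflection (V := Fin n → F) h2 (formB f hf.bilinear)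
    (fun v => hf.alternating v) (formB_nondegenerate f hf.bilinear hf.nondegenerate)
    (by simp; omega) (Y := Matrix.toLin' (Pi' * Matrix.diagonal (rd i₀ c) * Pm)) (c := c) (μ := μ) hc
    (u := Pi' *ᵥ (Pi.single i₀ 1)) ?_ ?_
    ((LinearMap.ker (LinearMap.proj (R := F) (φ := fun _ : Fin n => F) i₀)).map (Matrix.toLin' Pi'))
    ?_ ?_ ?_
  · intro h0
    have := congrArg (fun v => Pm *ᵥ v) h0
    simp only [Matrix.mulVec_mulVec, h1', Matrix.one_mulVec, Matrix.mulVec_zero] at this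
    have := congrFun this i₀
    simp at this
  · rw [Matrix.toLin'_apply, key, rd_mulVec_single, Matrix.mulVec_smul]
  · rintro _ ⟨w, hw, rfl⟩
    rw [Matrix.toLin'_apply, Matrix.toLin'_apply, key, rd_mulVec_of_zero i₀ c w (by simpa using hw),
      Matrix.mulVec_smul]
  · intro v
    refine ⟨(Pm *ᵥ v) i₀, Pi' *ᵥ (Pm *ᵥ v - (Pm *ᵥ v) i₀ • Pi.single i₀ 1),
      ⟨_, ?_, by rw [Matrix.toLin'_apply]⟩, ?_⟩
    · simp
    · rw [Matrix.mulVec_sub, Matrix.mulVec_smul, Matrix.mulVec_mulVec, h1, Matrix.one_mulVec]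
      abel
  · intro v w
    exact hsim v w

/-- S5967, direction (→) -/
theorem sp_fwd [Fintype F] {n : ℕ} (hn : 4 ≤ n)
    (f : (Fin n → F) → (Fin n → F) → F) (hf : Cfsg.Geo.IsSymplecticForm f)
    (H : ∀ x : Matrix.SpecialLinearGroup (Fin n) F,
      (∃ z : F, ((x ^ 2 : Matrix.SpecialLinearGroup (Fin n) F) : Matrix (Fin n) (Fin n) F)
        = z • (1 : Matrix (Fin n) (Fin n) F)) →
      (∀ z : F, (x : Matrix (Fin n) (Fin n) F) ≠ z • (1 : Matrix (Fin n) (Fin n) F)) →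
      ∃ P : Matrix.SpecialLinearGroup (Fin n) F, P⁻¹ * x * P ∈
        ((Cfsg.Geo.similarityGroup f).comap (Matrix.SpecialLinearGroup.toGL :
          Matrix.SpecialLinearGroup (Fin n) F →* Matrix.GeneralLinearGroup (Fin n) F))) :
    padicValNat 2 (Fintype.card F - 1) ≤ padicValNat 2 n := by
  classical
  by_contra hlt
  rw [not_le] at hlt
  have hodd := odd_card_of_val_lt hlt
  have h2 := two_ne_zero_of_odd_card hodd
  obtain ⟨c, hc⟩ := exists_pow_eq_neg_one hodd n (by omega) hlt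
  have hc0 : c ≠ 0 := by
    rintro rfl
    rw [zero_pow (by omega)] at hc
    exact neg_ne_zero.2 one_ne_zero hc.symm
  set i₀ : Fin n := ⟨0, by omega⟩
  set x : Matrix.SpecialLinearGroup (Fin n) F := ⟨Matrix.diagonal (rd i₀ c), rd_det i₀ hc⟩ with hx
  obtain ⟨P, hP⟩ := H x
    ⟨c * c, by rw [pow_two, Matrix.SpecialLinearGroup.coe_mul]; exact rd_sq i₀ c⟩
    (fun z => rd_ne (by omega) h2 i₀ hc0 z)
  rw [Subgroup.mem_comap] at hP
  obtain ⟨μ, hμ⟩ := hP
  refine sp_fwd_core h2 hn f hf hc0 i₀ (P⁻¹ : Matrix.SpecialLinearGroup (Fin n) F) P ?_ ?_ μ hμ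
  · rw [← Matrix.SpecialLinearGroup.coe_mul, inv_mul_cancel, Matrix.SpecialLinearGroup.coe_one]
  · rw [← Matrix.SpecialLinearGroup.coe_mul, mul_inv_cancel, Matrix.SpecialLinearGroup.coe_one]

end Cfsg.Agent.Lib.Helper9.Inv
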